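import Cfsg.Agent.CpAutBig.Small
import Cfsg.Agent.S0542
import Cfsg.Agent.Transfer.PGroupNormal

/-!
# Components of `H / O_{p'}(H)` and the action of `N_H(S)` on a Sylow subgroup `S` (helper6)

* `sup_facts` : products of commuting subgroups with trivial centre;
* `caseA` : two elements normalizing an abelian Sylow subgroup `E` without common invariant subgroup of order `p`
  outside `⟨z⟩`, `z` central: a component `K` is simple and `p ^ 2 ∣ |K|` or `p |K|² ∣ |H / O_{p'}(H)|`;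
* `caseD` : an element acting without invariant subgroup of order `p`: `p ^ 2 ∣ |K|` if `p ^ 4 ∤ |H|`;
* `caseC` : `Z(P) ≤ ⟨z⟩` for a Sylow subgroup `P`, `z` central: no components if `p ^ 2 ∤ |K / Z(K)|` for all of them.
-/

set_option autoImplicit false

open scoped Pointwise commutatorElement

namespace Cfsg.Agent.CpAutCoOneFive.Abs

open Subgroup Cfsg
open Cfsg.Agent.SignalizersComponents.Components

universe u

section cless

variable {X : Type u} [Group X]

/-- trivial centre -/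
def Cless (M : Subgroup X) : Prop := ∀ m ∈ M, (∀ k ∈ M, k * m = m * k) → m = 1

/-- the product of two commuting subgroups -/
def prodHom (M K : Subgroup X) (h : ∀ m ∈ M, ∀ k ∈ K, m * k = k * m) : ↥M × ↥K →* X where
  toFun a := (a.1 : X) * a.2
  map_one' := mul_one 1
  map_mul' := by
    rintro ⟨a, b⟩ ⟨c, d⟩
    change ((a : X) * c) * (b * d) = (a * b) * (c * d)
    have h1 := h c c.2 b b.2
    calc ((a : X) * c) * (b * d) = a * (c * b) * d := by group
      _ = a * (b * c) * d := by rw [h1]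
      _ = (a * b) * (c * d) := by group

theorem range_prodHom (M K : Subgroup X) (h : ∀ m ∈ M, ∀ k ∈ K, m * k = k * m) :
    (prodHom M K h).range = M ⊔ K := by
  apply le_antisymm
  · rintro _ ⟨⟨a, b⟩, rfl⟩
    exact mul_mem (mem_sup_left a.2) (mem_sup_right b.2)
  · refine sup_le ?_ ?_
    · intro m hm
      exact ⟨(⟨m, hm⟩, 1), mul_one m⟩
    · intro k hk
      exact ⟨(1, ⟨k, hk⟩), one_mul k⟩

theorem sup_facts {M K : Subgroup X} (h : ∀ m ∈ M, ∀ k ∈ K, m * k = k * m) (hM : Cless M) (hK : Cless K) :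
    Cless (M ⊔ K) ∧ Nat.card ↥(M ⊔ K) = Nat.card ↥M * Nat.card ↥K := by
  have hinj : Function.Injective (prodHom M K h) := by
    rw [injective_iff_map_eq_one]
    rintro ⟨a, b⟩ hab
    have hab' : (a : X) * b = 1 := hab
    have ha : (a : X) ∈ K := by
      rw [eq_inv_of_mul_eq_one_left hab']
      exact K.inv_mem b.2
    have ha1 : (a : X) = 1 := hM a a.2 fun k hk => h k hk a ha
    rw [ha1, one_mul] at hab'
    exact Prod.ext (Subtype.ext ha1) (Subtype.ext hab')
  have hr := range_prodHom M K h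
  constructor
  · intro m hm hc
    rw [← hr] at hm
    obtain ⟨⟨a, b⟩, rfl⟩ := hm
    have hm' : prodHom M K h (a, b) = (a : X) * b := rfl
    rw [hm'] at hc ⊢
    have ha1 : (a : X) = 1 := by
      refine hM a a.2 fun k hk => ?_
      have h1 := hc k (mem_sup_left hk)
      have h2 := h k hk b b.2
      have h3 : k * a * b = a * k * b := by
        calc k * a * b = k * (a * b) := mul_assoc _ _ _
          _ = a * b * k := h1
          _ = a * (b * k) := mul_assoc _ _ _
          _ = a * (k * b) := by rw [h2]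
          _ = a * k * b := (mul_assoc _ _ _).symm
      exact mul_right_cancel h3
    have hb1 : (b : X) = 1 := by
      refine hK b b.2 fun k hk => ?_
      have h1 := hc k (mem_sup_right hk)
      rwa [ha1, one_mul] at h1
    rw [ha1, hb1, one_mul]
  · rw [← hr, ← Nat.card_prod]
    exact (Nat.card_congr (MonoidHom.ofInjective hinj).toEquiv).symm

theorem cless_of_simple {K : Subgroup X} (hn : ¬ IsMulCommutative ↥K) (hs : IsSimpleGroup ↥K) : Cless K := by
  intro m hm hc
  have hz := CpAut.center_eq_bot_of_simple hn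
  have h1 : (⟨m, hm⟩ : ↥K) ∈ center ↥K := by
    rw [mem_center_iff]
    rintro ⟨g, hg⟩
    exact Subtype.ext (hc g hg)
  rw [hz, mem_bot] at h1
  exact congrArg Subtype.val h1

theorem comm_of_ne {K L : Subgroup X} (hK : IsComponent K) (hL : IsComponent L) (h : K ≠ L) :
    ∀ m ∈ K, ∀ k ∈ L, m * k = k * m := by
  intro m hm k hk
  have h1 := component_le_centralizer_of_ne hK hL h hm
  exact (mem_centralizer_iff.1 h1 k hk).symm

theorem cless_sup_finset (hC : ∀ K : Subgroup X, IsComponent K → Cless K) (s : Finset (Subgroup X)) :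
    (∀ K ∈ s, IsComponent K) → Cless (s.sup id) := by
  classical
  induction s using Finset.induction_on with
  | empty =>
    intro _
    rw [Finset.sup_empty]
    intro m hm _
    exact mem_bot.1 hm
  | insert K s hKs ih =>
    intro h
    rw [Finset.sup_insert, id, sup_comm]
    have h1 := ih fun L hL => h L (Finset.mem_insert_of_mem hL)
    have hK := h K (Finset.mem_insert_self K s)
    refine (sup_facts ?_ h1 (hC K hK)).1
    intro m hm k hk
    have h2 : s.sup id ≤ centralizer (K : Set X) := by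
      refine Finset.sup_le fun L hL => ?_
      refine component_le_centralizer_of_ne (h L (Finset.mem_insert_of_mem hL)) hK ?_
      rintro rfl
      exact hKs hL
    exact (mem_centralizer_iff.1 (h2 hm) k hk).symm

theorem cless_layer [Finite X] (hC : ∀ K : Subgroup X, IsComponent K → Cless K) : Cless (layer X) := by
  classical
  have hfin : {K : Subgroup X | IsComponent K}.Finite := Set.toFinite _
  have h1 := cless_sup_finset hC hfin.toFinset fun K hK => (Set.Finite.mem_toFinset hfin).1 hK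
  have h2 : hfin.toFinset.sup id = layer X := by
    unfold layer
    rw [Finset.sup_id_eq_sSup, Set.Finite.coe_toFinset]
  rwa [h2] at h1

theorem card_map_conj (K : Subgroup X) (w : X) : Nat.card ↥(K.map (MulAut.conj w).toMonoidHom) = Nat.card ↥K :=
  (Nat.card_congr (K.equivMapOfInjective _ (MulAut.conj w).injective).toEquiv).symm

end cless

/-! ### Sylow subgroups of `H` and `H / O_{p'}(H)` -/

section transfer

variable {H : Type u} [Group H] [Finite H] {p : ℕ}

theorem exists_sylow {G : Type*} [Group G] [Finite G] (hp : p.Prime) {E : Subgroup G} (hE : IsPGroup p ↥E)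
    (hS : ¬ p * Nat.card ↥E ∣ Nat.card G) : ∃ T : Sylow p G, (T : Subgroup G) = E := by
  have : Fact p.Prime := ⟨hp⟩
  obtain ⟨P, hP⟩ := hE.exists_le_sylow
  obtain ⟨n, hn⟩ := IsPGroup.iff_card.1 P.isPGroup'
  obtain ⟨m, hm⟩ := IsPGroup.iff_card.1 hE
  refine ⟨P, (eq_of_le_of_card_ge hP ?_).symm⟩
  rw [hm, hn]
  apply Nat.pow_le_pow_right hp.pos
  by_contra hc
  push Not at hc
  apply hS
  rw [hm, ← pow_succ']
  refine (pow_dvd_pow p hc).trans ?_
  rw [← hn]
  exact card_subgroup_dvd_card _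

theorem eq_one_of_mem {E : Subgroup H} (hE : IsPGroup p ↥E) (_hp : p.Prime) [(pPrimeCore p H).Normal] {e : H}
    (he : e ∈ E) (h : QuotientGroup.mk' (pPrimeCore p H) e = 1) : e = 1 := by
  have h1 : e ∈ pPrimeCore p H := (QuotientGroup.eq_one_iff e).1 h
  have h2 : orderOf e ∣ Nat.card ↥(pPrimeCore p H) := by
    have := orderOf_dvd_natCard (⟨e, h1⟩ : ↥(pPrimeCore p H))
    rwa [Subgroup.orderOf_mk] at this
  obtain ⟨k, hk⟩ := hE ⟨e, he⟩
  have h3 : e ^ p ^ k = 1 := congrArg Subtype.val hk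
  have h4 : orderOf e ∣ p ^ k := orderOf_dvd_of_pow_eq_one h3
  have hO : (Nat.card ↥(pPrimeCore p H)).Coprime p := Lib.Cores.pPrimeCore_coprime p
  have h5 : (orderOf e).Coprime (orderOf e) :=
    Nat.Coprime.coprime_dvd_left h2 (Nat.Coprime.coprime_dvd_right h4 (Nat.Coprime.pow_right k hO))
  exact orderOf_eq_one_iff.1 ((Nat.coprime_self _).1 h5)

/-- the image of a Sylow subgroup -/
theorem exists_image (hp : p.Prime) [(pPrimeCore p H).Normal] {E : Subgroup H} (hE : IsPGroup p ↥E)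
    (hS : ¬ p * Nat.card ↥E ∣ Nat.card H) :
    ∃ T : Sylow p (H ⧸ pPrimeCore p H), (T : Subgroup (H ⧸ pPrimeCore p H)) =
      E.map (QuotientGroup.mk' (pPrimeCore p H)) := by
  have : Fact p.Prime := ⟨hp⟩
  apply exists_sylow hp (hE.map _)
  intro h
  apply hS
  have h1 : Nat.card ↥(E.map (QuotientGroup.mk' (pPrimeCore p H))) = Nat.card ↥E := by
    let f : ↥E →* (H ⧸ pPrimeCore p H) := (QuotientGroup.mk' (pPrimeCore p H)).comp E.subtype
    have hf : Function.Injective f := by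
      rw [injective_iff_map_eq_one]
      rintro ⟨e, he⟩ h
      exact Subtype.ext (eq_one_of_mem hE hp he h)
    have h2 : f.range = E.map (QuotientGroup.mk' (pPrimeCore p H)) := by
      rw [MonoidHom.range_comp, E.range_subtype]
    rw [← h2]
    exact (Nat.card_congr (MonoidHom.ofInjective hf).toEquiv).symm
  rw [h1] at h
  exact h.trans (card_quotient_dvd_card _)

end transfer

/-! ### Components with abelian Sylow subgroups -/

section comp

variable {X : Type u} [Group X] [Finite X] {p : ℕ}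

theorem exists_sylow_comp (hp : p.Prime) (T : Sylow p X) {K : Subgroup X} (hK : IsComponent K) :
    ∃ Q : Sylow p ↥K, (Q : Subgroup ↥K) = (T : Subgroup X).subgroupOf K := by
  have : Fact p.Prime := ⟨hp⟩
  exact S0542.result p K hK.1 T

/-- a component with abelian Sylow subgroups and a `p`-group as centre -/
theorem simple_of_comm (hp : p.Prime) {K : Subgroup X} (hK : IsComponent K) (hZ : IsPGroup p ↥(center ↥K))
    (Q : Sylow p ↥K) (hQ : ∀ a ∈ (Q : Subgroup ↥K), ∀ b ∈ (Q : Subgroup ↥K), a * b = b * a) :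
    IsSimpleGroup ↥K ∧ ¬ IsMulCommutative ↥K := by
  have : Fact p.Prime := ⟨hp⟩
  have hz : center ↥K = ⊥ := by
    rw [eq_bot_iff]
    intro z hz
    rw [mem_bot]
    refine CpAut.central_eq_one hK.2.1 Q hQ hz ?_
    have h1 : center ↥K ≤ (Q : Subgroup ↥K) := by
      obtain ⟨P, hP⟩ := hZ.exists_le_sylow
      have h2 : center ↥K ≤ (Q : Subgroup ↥K) := by
        obtain ⟨g, hg⟩ := MulAction.exists_smul_eq ↥K P Q
        intro c hc
        have h3 : (MulAut.conj g) c ∈ MulAut.conj g • (P : Subgroup ↥K) :=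
          Subgroup.smul_mem_pointwise_smul c (MulAut.conj g) (P : Subgroup ↥K) (hP hc)
        have h4 : MulAut.conj g • (P : Subgroup ↥K) = (Q : Subgroup ↥K) := by
          rw [← hg]
          rfl
        rw [h4] at h3
        have h5 : (MulAut.conj g) c = c := by
          rw [MulAut.conj_apply, mem_center_iff.1 hc g, mul_inv_cancel_right]
        rwa [h5] at h3
      exact h2
    exact h1 hz
  have hs : IsSimpleGroup ↥K :=
    (CpQuot.Congr.isSimple_iff ((QuotientGroup.quotientMulEquivOfEq hz).trans QuotientGroup.quotientBot)).1 hK.2.2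
  refine ⟨hs, ?_⟩
  intro hc
  apply quasisimple_not_isSolvable hK.2
  exact Group.isSolvable_of_comm fun a b => hc.is_comm.comm a b

/-- the generator of `K ∩ T` -/
theorem exists_gen (hp : p.Prime) (T : Sylow p X) {z : X} (hzc : z ∈ center X) {K : Subgroup X}
    (hK : IsComponent K) (hs : IsSimpleGroup ↥K) (hn : ¬ IsMulCommutative ↥K) (hpK : p ∣ Nat.card ↥K)
    (hp2 : ¬ p ^ 2 ∣ Nat.card ↥K) :
    ∃ q ∈ (T : Subgroup X), q ∉ zpowers z ∧ ∀ w : X, (∀ t ∈ (T : Subgroup X), w * t * w⁻¹ ∈ (T : Subgroup X)) →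
      K.map (MulAut.conj w).toMonoidHom = K → w * q * w⁻¹ ∈ zpowers q := by
  have : Fact p.Prime := ⟨hp⟩
  obtain ⟨Q, hQ⟩ := exists_sylow_comp hp T hK
  obtain ⟨n, hn'⟩ := IsPGroup.iff_card.1 Q.isPGroup'
  have h1 : n ≤ 1 := by
    by_contra hc
    push Not at hc
    apply hp2
    refine (pow_dvd_pow p hc).trans ?_
    rw [← hn']
    exact card_subgroup_dvd_card _
  have h2 : n ≠ 0 := by
    rintro rfl
    have h3 := Q.dvd_card_of_dvd_card hpK
    rw [hn', pow_zero] at h3
    exact hp.one_lt.ne' (Nat.dvd_one.1 h3)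
  have hn1 : n = 1 := by omega
  rw [hn1, pow_one] at hn'
  obtain ⟨q, hq⟩ : ∃ q : ↥K, q ∈ (Q : Subgroup ↥K) ∧ q ≠ 1 := by
    have h3 : Nontrivial ↥(Q : Subgroup ↥K) := Finite.one_lt_card_iff_nontrivial.1 (by rw [hn']; exact hp.one_lt)
    obtain ⟨q, hq⟩ := exists_ne (1 : ↥(Q : Subgroup ↥K))
    exact ⟨q, q.2, fun h => hq (Subtype.ext h)⟩
  have hqT : (q : X) ∈ (T : Subgroup X) := by
    have := hq.1
    rw [hQ, mem_subgroupOf] at this
    exact this
  have hgen : ∀ y ∈ K, y ∈ (T : Subgroup X) → y ∈ zpowers (q : X) := by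
    intro y hy hyT
    have hyQ : (⟨y, hy⟩ : ↥K) ∈ (Q : Subgroup ↥K) := by rw [hQ, mem_subgroupOf]; exact hyT
    have h3 : (⟨⟨y, hy⟩, hyQ⟩ : ↥(Q : Subgroup ↥K)) ∈ zpowers (⟨q, hq.1⟩ : ↥(Q : Subgroup ↥K)) := by
      have : Fact (Nat.card ↥(Q : Subgroup ↥K)).Prime := ⟨by rw [hn']; exact hp⟩
      exact mem_zpowers_of_prime_card rfl (fun h => hq.2 (congrArg Subtype.val h))
    obtain ⟨m, hm⟩ := h3
    exact ⟨m, congrArg (fun a : ↥(Q : Subgroup ↥K) => ((a : ↥K) : X)) hm⟩
  refine ⟨q, hqT, ?_, ?_⟩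
  · intro hz
    apply hq.2
    apply Subtype.ext
    have hqc : (q : X) ∈ center X := by
      obtain ⟨m, hm⟩ := hz
      rw [← hm]
      exact zpow_mem hzc m
    exact cless_of_simple hn hs q q.2 fun k _ => mem_center_iff.1 hqc k
  · intro w hw hKw
    apply hgen _ _ (hw _ hqT)
    have h5 : w * (q : X) * w⁻¹ ∈ K.map (MulAut.conj w).toMonoidHom := ⟨q, q.2, rfl⟩
    rw [hKw] at h5
    exact h5

end comp

/-! ### The cases -/

section cases

variable {H : Type u} [Group H] [Finite H] {p : ℕ}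

theorem comp_simple (hp : p.Prime) {E : Subgroup H} (hE : IsPGroup p ↥E) (hS : ¬ p * Nat.card ↥E ∣ Nat.card H)
    (hc : ∀ a ∈ E, ∀ b ∈ E, a * b = b * a) {z : H} (hz : orderOf z = p) (hzc : z ∈ center H)
    (K : Subgroup (H ⧸ pPrimeCore p H)) (hK : IsComponent K) :
    IsSimpleGroup ↥K ∧ ¬ IsMulCommutative ↥K ∧ p ∣ Nat.card ↥K ∧ p * Nat.card ↥K ∣ Nat.card (H ⧸ pPrimeCore p H) := by
  have : Fact p.Prime := ⟨hp⟩
  have hO := Lib.Cores.pPrimeCore_normal (G := H) p
  obtain ⟨T, hT⟩ := exists_image hp hE hS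
  obtain ⟨Q, hQ⟩ := exists_sylow_comp hp T hK
  obtain ⟨hs, hn⟩ := simple_of_comm hp hK (CpAut.isPGroup_center_comp hp K hK) Q (by
    intro a ha b hb
    rw [hQ, mem_subgroupOf, hT] at ha hb
    obtain ⟨a', ha', ha''⟩ := ha
    obtain ⟨b', hb', hb''⟩ := hb
    apply Subtype.ext
    change (a : H ⧸ pPrimeCore p H) * b = b * a
    rw [← ha'', ← hb'', ← map_mul, hc a' ha' b' hb', map_mul])
  have hyc : QuotientGroup.mk' (pPrimeCore p H) z ∈ center (H ⧸ pPrimeCore p H) := CpAutBig.Small.mk_mem_center hzc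
  have hy : orderOf (QuotientGroup.mk' (pPrimeCore p H) z) = p := CpAut.orderOf_mk_core hp hz
  refine ⟨hs, hn, CpAut.dvd_card_comp hp K hK, CpAutBig.Small.card_sup_zpowers hp hy hyc K ?_⟩
  intro hzK
  have h1 := cless_of_simple hn hs _ hzK fun k _ => mem_center_iff.1 hyc k
  rw [h1, orderOf_one] at hy
  exact hp.one_lt.ne hy

/-- the conjugation action on the image of `E` -/
theorem lift_conj (hp : p.Prime) [(pPrimeCore p H).Normal] {E : Subgroup H} (hE : IsPGroup p ↥E) {q w : H}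
    (hq : q ∈ E) (hw : w * q * w⁻¹ ∈ E)
    (h : QuotientGroup.mk' (pPrimeCore p H) w * QuotientGroup.mk' (pPrimeCore p H) q *
      (QuotientGroup.mk' (pPrimeCore p H) w)⁻¹ ∈ zpowers (QuotientGroup.mk' (pPrimeCore p H) q)) :
    w * q * w⁻¹ ∈ zpowers q := by
  obtain ⟨m, hm⟩ := h
  refine ⟨m, ?_⟩
  have h1 : (w * q * w⁻¹) * (q ^ m)⁻¹ = 1 := by
    apply eq_one_of_mem hE hp (E.mul_mem hw (E.inv_mem (E.zpow_mem hq m)))
    have hm' : (QuotientGroup.mk' (pPrimeCore p H) q) ^ m = QuotientGroup.mk' (pPrimeCore p H) w *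
      QuotientGroup.mk' (pPrimeCore p H) q * (QuotientGroup.mk' (pPrimeCore p H) w)⁻¹ := hm
    rw [map_mul, map_mul, map_mul, map_inv, map_inv, map_zpow, hm', mul_inv_cancel]
  exact (mul_inv_eq_one.1 h1).symm

/-- **Two elements acting on the Sylow subgroup.** -/
theorem caseA (hp : p.Prime) {E : Subgroup H} (hE : IsPGroup p ↥E) (hS : ¬ p * Nat.card ↥E ∣ Nat.card H)
    (hc : ∀ a ∈ E, ∀ b ∈ E, a * b = b * a) {z : H} (hz : orderOf z = p) (hzc : z ∈ center H) {r t : H}
    (hr : ∀ e ∈ E, r * e * r⁻¹ ∈ E) (ht : ∀ e ∈ E, t * e * t⁻¹ ∈ E)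
    (hirr : ∀ q ∈ E, r * q * r⁻¹ ∈ zpowers q → t * q * t⁻¹ ∈ zpowers q → q ∈ zpowers z)
    (K : Subgroup (H ⧸ pPrimeCore p H)) (hK : IsComponent K) :
    IsSimpleGroup ↥K ∧ ¬ IsMulCommutative ↥K ∧ p ∣ Nat.card ↥K ∧ p * Nat.card ↥K ∣ Nat.card (H ⧸ pPrimeCore p H) ∧
      (p ^ 2 ∣ Nat.card ↥K ∨ p * (Nat.card ↥K * Nat.card ↥K) ∣ Nat.card (H ⧸ pPrimeCore p H)) := by
  have : Fact p.Prime := ⟨hp⟩
  have hO := Lib.Cores.pPrimeCore_normal (G := H) p
  obtain ⟨hs, hn, hpK, hd⟩ := comp_simple hp hE hS hc hz hzc K hK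
  refine ⟨hs, hn, hpK, hd, ?_⟩
  by_cases hp2 : p ^ 2 ∣ Nat.card ↥K
  · exact Or.inl hp2
  right
  obtain ⟨T, hT⟩ := exists_image hp hE hS
  have hyc : QuotientGroup.mk' (pPrimeCore p H) z ∈ center (H ⧸ pPrimeCore p H) := CpAutBig.Small.mk_mem_center hzc
  have hy : orderOf (QuotientGroup.mk' (pPrimeCore p H) z) = p := CpAut.orderOf_mk_core hp hz
  obtain ⟨q', hq'T, hq'z, hq'⟩ := exists_gen hp T hyc hK hs hn hpK hp2
  have hTq := hq'T
  rw [hT] at hTq
  obtain ⟨q, hqE, rfl⟩ := hTq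
  have hnorm : ∀ w : H, (∀ e ∈ E, w * e * w⁻¹ ∈ E) → ∀ t ∈ (T : Subgroup (H ⧸ pPrimeCore p H)),
      QuotientGroup.mk' (pPrimeCore p H) w * t * (QuotientGroup.mk' (pPrimeCore p H) w)⁻¹ ∈
        (T : Subgroup (H ⧸ pPrimeCore p H)) := by
    intro w hw t ht
    rw [hT] at ht ⊢
    obtain ⟨e, he, rfl⟩ := ht
    exact ⟨w * e * w⁻¹, hw e he, by rw [map_mul, map_mul, map_inv]⟩
  have hex : ∃ w : H ⧸ pPrimeCore p H, K.map (MulAut.conj w).toMonoidHom ≠ K := by
    by_contra hcon
    push Not at hcon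
    apply hq'z
    have h1 := hq' _ (hnorm r hr) (hcon _)
    have h2 := hq' _ (hnorm t ht) (hcon _)
    have h3 := hirr q hqE (lift_conj hp hE hqE (hr q hqE) h1) (lift_conj hp hE hqE (ht q hqE) h2)
    obtain ⟨m, hm⟩ := h3
    exact ⟨m, by
      have := congrArg (QuotientGroup.mk' (pPrimeCore p H)) hm
      simpa only [map_zpow] using this⟩
  obtain ⟨w, hw⟩ := hex
  have hK2 := isComponent_conj w hK
  have hcl := cless_of_simple hn hs
  have hn2 : ¬ IsMulCommutative ↥(K.map (MulAut.conj w).toMonoidHom) := quasisimple_not_isMulCommutative hK2.2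
  have hs2 : IsSimpleGroup ↥(K.map (MulAut.conj w).toMonoidHom) :=
    (CpQuot.Congr.isSimple_iff (K.equivMapOfInjective _ (MulAut.conj w).injective)).1 hs
  have hcl2 := cless_of_simple hn2 hs2
  obtain ⟨h1, h2⟩ := sup_facts (comm_of_ne hK hK2 (Ne.symm hw)) hcl hcl2
  rw [card_map_conj] at h2
  rw [← h2]
  refine CpAutBig.Small.card_sup_zpowers hp hy hyc _ ?_
  intro hzK
  have h3 := h1 _ hzK fun k _ => mem_center_iff.1 hyc k
  rw [h3, orderOf_one] at hy
  exact hp.one_lt.ne hy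

/-- **An element acting without invariant subgroups.** -/
theorem caseD (hp : p.Prime) {E : Subgroup H} (hE : IsPGroup p ↥E) (hS : ¬ p * Nat.card ↥E ∣ Nat.card H)
    (h4 : ¬ p ^ 4 ∣ Nat.card H)
    (hc : ∀ a ∈ E, ∀ b ∈ E, a * b = b * a) {z : H} (hz : orderOf z = p) (hzc : z ∈ center H) {s : H}
    (hs' : ∀ e ∈ E, s * e * s⁻¹ ∈ E)
    (hirr : ∀ q ∈ E, s * q * s⁻¹ ∈ zpowers q → q ∈ zpowers z)
    (hirr2 : ∀ q ∈ E, (s * s) * q * (s * s)⁻¹ ∈ zpowers q → q ∈ zpowers z)
    (K : Subgroup (H ⧸ pPrimeCore p H)) (hK : IsComponent K) :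
    IsSimpleGroup ↥K ∧ ¬ IsMulCommutative ↥K ∧ p * Nat.card ↥K ∣ Nat.card (H ⧸ pPrimeCore p H) ∧
      p ^ 2 ∣ Nat.card ↥K := by
  have : Fact p.Prime := ⟨hp⟩
  have hO := Lib.Cores.pPrimeCore_normal (G := H) p
  obtain ⟨hs, hn, hpK, hd⟩ := comp_simple hp hE hS hc hz hzc K hK
  refine ⟨hs, hn, hd, ?_⟩
  by_contra hp2
  obtain ⟨T, hT⟩ := exists_image hp hE hS
  have hyc : QuotientGroup.mk' (pPrimeCore p H) z ∈ center (H ⧸ pPrimeCore p H) := CpAutBig.Small.mk_mem_center hzc
  have hy : orderOf (QuotientGroup.mk' (pPrimeCore p H) z) = p := CpAut.orderOf_mk_core hp hz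
  obtain ⟨q', hq'T, hq'z, hq'⟩ := exists_gen hp T hyc hK hs hn hpK hp2
  have hTq := hq'T
  rw [hT] at hTq
  obtain ⟨q, hqE, rfl⟩ := hTq
  have hnorm : ∀ w : H, (∀ e ∈ E, w * e * w⁻¹ ∈ E) → ∀ t ∈ (T : Subgroup (H ⧸ pPrimeCore p H)),
      QuotientGroup.mk' (pPrimeCore p H) w * t * (QuotientGroup.mk' (pPrimeCore p H) w)⁻¹ ∈
        (T : Subgroup (H ⧸ pPrimeCore p H)) := by
    intro w hw t ht
    rw [hT] at ht ⊢
    obtain ⟨e, he, rfl⟩ := ht
    exact ⟨w * e * w⁻¹, hw e he, by rw [map_mul, map_mul, map_inv]⟩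
  have hs2 : ∀ e ∈ E, (s * s) * e * (s * s)⁻¹ ∈ E := by
    intro e he
    have h1 := hs' _ (hs' e he)
    have h2 : s * (s * e * s⁻¹) * s⁻¹ = (s * s) * e * (s * s)⁻¹ := by group
    rwa [h2] at h1
  have hz' : ∀ q : H, q ∈ zpowers z → QuotientGroup.mk' (pPrimeCore p H) q ∈
      zpowers (QuotientGroup.mk' (pPrimeCore p H) z) := by
    rintro _ ⟨m, rfl⟩
    exact ⟨m, by
      change (QuotientGroup.mk' (pPrimeCore p H) z) ^ m = QuotientGroup.mk' (pPrimeCore p H) (z ^ m)
      rw [map_zpow]⟩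
  obtain ⟨w, hw⟩ : ∃ w, w = QuotientGroup.mk' (pPrimeCore p H) s := ⟨_, rfl⟩
  have hne1 : K.map (MulAut.conj w).toMonoidHom ≠ K := by
    intro h
    apply hq'z
    rw [hw] at h
    exact hz' q (hirr q hqE (lift_conj hp hE hqE (hs' q hqE) (hq' _ (hnorm s hs') h)))
  have hne2 : K.map (MulAut.conj (w * w)).toMonoidHom ≠ K := by
    intro h
    apply hq'z
    have hww : w * w = QuotientGroup.mk' (pPrimeCore p H) (s * s) := by rw [hw, map_mul]
    rw [hww] at h
    exact hz' q (hirr2 q hqE (lift_conj hp hE hqE (hs2 q hqE) (hq' _ (hnorm (s * s) hs2) h)))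
  have hmap : (K.map (MulAut.conj w).toMonoidHom).map (MulAut.conj w).toMonoidHom =
      K.map (MulAut.conj (w * w)).toMonoidHom := by
    rw [Subgroup.map_map]
    congr 1
    ext x
    change w * (w * x * w⁻¹) * w⁻¹ = (w * w) * x * (w * w)⁻¹
    group
  have hne3 : K.map (MulAut.conj w).toMonoidHom ≠ K.map (MulAut.conj (w * w)).toMonoidHom := by
    intro h
    apply hne1
    rw [← hmap] at h
    exact (Subgroup.map_injective (MulAut.conj w).injective h).symm
  have key : ∀ v : H ⧸ pPrimeCore p H, IsComponent (K.map (MulAut.conj v).toMonoidHom) ∧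
      Cless (K.map (MulAut.conj v).toMonoidHom) := by
    intro v
    have hK2 := isComponent_conj v hK
    refine ⟨hK2, cless_of_simple (quasisimple_not_isMulCommutative hK2.2) ?_⟩
    exact (CpQuot.Congr.isSimple_iff (K.equivMapOfInjective _ (MulAut.conj v).injective)).1 hs
  obtain ⟨hK2, hc2⟩ := key w
  obtain ⟨hK3, hc3⟩ := key (w * w)
  obtain ⟨h1, h2⟩ := sup_facts (comm_of_ne hK hK2 (Ne.symm hne1)) (cless_of_simple hn hs) hc2
  have hcomm : ∀ m ∈ K ⊔ K.map (MulAut.conj w).toMonoidHom, ∀ k ∈ K.map (MulAut.conj (w * w)).toMonoidHom,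
      m * k = k * m := by
    intro m hm k hk
    have h5 : K ⊔ K.map (MulAut.conj w).toMonoidHom ≤
        centralizer (K.map (MulAut.conj (w * w)).toMonoidHom : Set (H ⧸ pPrimeCore p H)) :=
      sup_le (component_le_centralizer_of_ne hK hK3 (Ne.symm hne2))
        (component_le_centralizer_of_ne hK2 hK3 hne3)
    exact (mem_centralizer_iff.1 (h5 hm) k hk).symm
  obtain ⟨h6, h7⟩ := sup_facts hcomm h1 hc3
  rw [h2, card_map_conj, card_map_conj] at h7
  have h8 : p * Nat.card ↥(K ⊔ K.map (MulAut.conj w).toMonoidHom ⊔ K.map (MulAut.conj (w * w)).toMonoidHom) ∣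
      Nat.card (H ⧸ pPrimeCore p H) := by
    refine CpAutBig.Small.card_sup_zpowers hp hy hyc _ ?_
    intro hzK
    have h3 := h6 _ hzK fun k _ => mem_center_iff.1 hyc k
    rw [h3, orderOf_one] at hy
    exact hp.one_lt.ne hy
  rw [h7] at h8
  apply h4
  refine Dvd.dvd.trans ?_ (h8.trans (card_quotient_dvd_card _))
  have h9 : p ^ 4 = p * (p * p * p) := by ring
  rw [h9]
  exact mul_dvd_mul_left p (mul_dvd_mul (mul_dvd_mul hpK hpK) hpK)

/-- **The centre of a Sylow subgroup is central.** -/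
theorem caseC (hp : p.Prime) {P : Subgroup H} (hP : IsPGroup p ↥P) (hS : ¬ p * Nat.card ↥P ∣ Nat.card H)
    {z : H} (hz : orderOf z = p) (hzc : z ∈ center H) (hZ : ∀ x ∈ P, (∀ y ∈ P, y * x = x * y) → x ∈ zpowers z)
    (h2 : ∀ K : Subgroup (H ⧸ pPrimeCore p H), IsComponent K → ¬ p ^ 2 ∣ Nat.card (↥K ⧸ center ↥K))
    (K : Subgroup (H ⧸ pPrimeCore p H)) : ¬ IsComponent K := by
  intro hK
  have : Fact p.Prime := ⟨hp⟩
  have hO := Lib.Cores.pPrimeCore_normal (G := H) p
  obtain ⟨T, hT⟩ := exists_image hp hP hS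
  have hyc : QuotientGroup.mk' (pPrimeCore p H) z ∈ center (H ⧸ pPrimeCore p H) := CpAutBig.Small.mk_mem_center hzc
  have hy : orderOf (QuotientGroup.mk' (pPrimeCore p H) z) = p := CpAut.orderOf_mk_core hp hz
  -- all components are simple
  have hcl : ∀ L : Subgroup (H ⧸ pPrimeCore p H), IsComponent L → Cless L := by
    intro L hL
    obtain ⟨Q, hQ⟩ := exists_sylow_comp hp T hL
    have hZL := CpAut.isPGroup_center_comp hp L hL
    have hab : ∀ a ∈ (Q : Subgroup ↥L), ∀ b ∈ (Q : Subgroup ↥L), a * b = b * a := by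
      let f : ↥(Q : Subgroup ↥L) →* (↥L ⧸ center ↥L) :=
        (QuotientGroup.mk' (center ↥L)).comp (Q : Subgroup ↥L).subtype
      have hfr : IsCyclic ↥f.range := by
        have h3 : IsPGroup p ↥f.range := Q.isPGroup'.of_surjective f.rangeRestrict f.rangeRestrict_surjective
        obtain ⟨n, hn⟩ := IsPGroup.iff_card.1 h3
        have hn1 : n ≤ 1 := by
          by_contra hc
          push Not at hc
          apply h2 L hL
          refine (pow_dvd_pow p hc).trans ?_
          rw [← hn]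
          exact card_subgroup_dvd_card _
        rcases Nat.le_one_iff_eq_zero_or_eq_one.1 hn1 with h | h
        · rw [h, pow_zero] at hn
          have := (Nat.card_eq_one_iff_unique.1 hn).1
          exact isCyclic_of_subsingleton
        · rw [h, pow_one] at hn
          exact isCyclic_of_prime_card hn
      have hker : f.rangeRestrict.ker ≤ center ↥(Q : Subgroup ↥L) := by
        intro a ha
        rw [MonoidHom.ker_rangeRestrict, MonoidHom.mem_ker] at ha
        have h3 : (a : ↥L) ∈ center ↥L := (QuotientGroup.eq_one_iff _).1 ha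
        rw [mem_center_iff]
        intro b
        exact Subtype.ext (mem_center_iff.1 h3 b)
      intro a ha b hb
      exact congrArg Subtype.val
        ((MonoidHom.isMulCommutative_of_isCyclic_of_ker_le_center f.rangeRestrict hker).is_comm.comm ⟨a, ha⟩ ⟨b, hb⟩)
    obtain ⟨h3, h4⟩ := simple_of_comm hp hL hZL Q hab
    exact cless_of_simple h4 h3
  have hlay := cless_layer hcl
  have hN : (layer (H ⧸ pPrimeCore p H)).Normal := layer_normal _
  -- `T ∩ E(X)` is a nontrivial normal subgroup of `T`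
  obtain ⟨QL, hQL⟩ : ∃ Q : Sylow p ↥(layer (H ⧸ pPrimeCore p H)), (Q : Subgroup ↥(layer (H ⧸ pPrimeCore p H))) =
      (T : Subgroup (H ⧸ pPrimeCore p H)).subgroupOf (layer (H ⧸ pPrimeCore p H)) :=
    S0542.result p _ hN.isSubnormal T
  have hpL : p ∣ Nat.card ↥(layer (H ⧸ pPrimeCore p H)) :=
    (CpAut.dvd_card_comp hp K hK).trans (card_dvd_of_le (component_le_layer hK))
  have hQLp : p ∣ Nat.card ↥(QL : Subgroup ↥(layer (H ⧸ pPrimeCore p H))) := QL.dvd_card_of_dvd_card hpL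
  let A : Subgroup ↥(T : Subgroup (H ⧸ pPrimeCore p H)) := (layer (H ⧸ pPrimeCore p H)).subgroupOf T
  have hAN : A.Normal := hN.subgroupOf _
  have hAnt : Nontrivial ↥A := by
    have h3 : Nontrivial ↥(QL : Subgroup ↥(layer (H ⧸ pPrimeCore p H))) :=
      Finite.one_lt_card_iff_nontrivial.1 (lt_of_lt_of_le hp.one_lt (Nat.le_of_dvd Nat.card_pos hQLp))
    obtain ⟨q, hq⟩ := exists_ne (1 : ↥(QL : Subgroup ↥(layer (H ⧸ pPrimeCore p H))))
    have hqT : ((q : ↥(layer (H ⧸ pPrimeCore p H))) : H ⧸ pPrimeCore p H) ∈ (T : Subgroup (H ⧸ pPrimeCore p H)) := by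
      exact mem_subgroupOf.1 (hQL.le q.2)
    refine ⟨⟨⟨⟨_, hqT⟩, q.1.2⟩, 1, ?_⟩⟩
    intro h
    apply hq
    apply Subtype.ext
    apply Subtype.ext
    exact congrArg (fun a : ↥A => ((a : ↥(T : Subgroup (H ⧸ pPrimeCore p H))) : H ⧸ pPrimeCore p H)) h
  have hTp : IsPGroup p ↥(T : Subgroup (H ⧸ pPrimeCore p H)) := T.isPGroup'
  obtain ⟨x, hxA, hxc, hxo⟩ := Transfer.PGroupNormal.exists_mem_inf_center_orderOf hTp A
    ((nontrivial_iff_ne_bot A).1 hAnt)
  have hxL : (x : H ⧸ pPrimeCore p H) ∈ layer (H ⧸ pPrimeCore p H) := hxA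
  obtain ⟨e, he, hex⟩ := hT.le x.2
  have hez : e ∈ zpowers z := by
    apply hZ e he
    intro y hyP
    have h3 : (y * e) * (e * y)⁻¹ = 1 := by
      apply eq_one_of_mem hP hp (P.mul_mem (P.mul_mem hyP he) (P.inv_mem (P.mul_mem he hyP)))
      have hyT : QuotientGroup.mk' (pPrimeCore p H) y ∈ (T : Subgroup (H ⧸ pPrimeCore p H)) := by
        rw [hT]
        exact ⟨y, hyP, rfl⟩
      have h4 : QuotientGroup.mk' (pPrimeCore p H) y * (x : H ⧸ pPrimeCore p H) =
          (x : H ⧸ pPrimeCore p H) * QuotientGroup.mk' (pPrimeCore p H) y :=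
        congrArg Subtype.val (mem_center_iff.1 hxc ⟨_, hyT⟩)
      rw [map_mul, map_inv, map_mul, map_mul, hex, h4, mul_inv_cancel]
    exact mul_inv_eq_one.1 h3
  have hxz : (x : H ⧸ pPrimeCore p H) ∈ zpowers (QuotientGroup.mk' (pPrimeCore p H) z) := by
    obtain ⟨m, rfl⟩ := hez
    refine ⟨m, ?_⟩
    rw [← hex]
    change (QuotientGroup.mk' (pPrimeCore p H) z) ^ m = QuotientGroup.mk' (pPrimeCore p H) (z ^ m)
    rw [map_zpow]
  have hzz : zpowers (x : H ⧸ pPrimeCore p H) = zpowers (QuotientGroup.mk' (pPrimeCore p H) z) := by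
    apply eq_of_le_of_card_ge (zpowers_le.2 hxz)
    rw [Nat.card_zpowers, Nat.card_zpowers, hy, Subgroup.orderOf_coe, hxo]
  have hzL : QuotientGroup.mk' (pPrimeCore p H) z ∈ layer (H ⧸ pPrimeCore p H) := by
    have h3 : zpowers (x : H ⧸ pPrimeCore p H) ≤ layer (H ⧸ pPrimeCore p H) := zpowers_le.2 hxL
    rw [hzz] at h3
    exact h3 (mem_zpowers _)
  have h3 := hlay _ hzL fun k _ => mem_center_iff.1 hyc k
  rw [h3, orderOf_one] at hy
  exact hp.one_lt.ne hy

end cases

end Cfsg.Agent.CpAutCoOneFive.Abs
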