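import Cfsg.Agent.OrdDiv.Main
import Cfsg.Agent.CpAut.Base
import Cfsg.Agent.CpAutCoOneFive.Abs
import Cfsg.Agent.GpLn.Rank
import Cfsg.Agent.SigZeroU5.Lin
import Cfsg.Agent.S0493
import Cfsg.Agent.S0494

/-!
# Lists of simple groups by order (helper6)

`hS` : the classification; `T` : the table of orders (`OrdDiv.table`).
-/

set_option autoImplicit false

namespace Cfsg.Agent.CpAutCoOneFive.Nums

open Cfsg Subgroup Cfsg.Agent.OrdDiv
open Cfsg.Agent.CpAut (AllKnown)

theorem mod_of_dvd {n : ℕ} (h : 25 ∣ n) : (n % 25 == 0) = true := by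
  rw [Nat.mod_eq_zero_of_dvd h]
  rfl

/-- no simple group of order dividing `2^22 3^9 5^4` has order divisible by 25 -/
theorem list_c (hS : AllKnown.{0}) (T : OrderTable.{0}) {S : Type} [Group S] [Finite S] [IsSimpleGroup S]
    (hn : ¬ ∀ a b : S, a * b = b * a) (hd : Nat.card S ∣ 51597803520000) : ¬ 25 ∣ Nat.card S := by
  intro h25
  obtain ⟨g, hg, -⟩ := exists_real_filter T (hS S) hn (l := [(2, 22), (3, 9), (5, 4)]) (N := 51597803520000)
    (by decide +kernel) hd (fun n => n % 25 == 0) (mod_of_dvd h25)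
  have h0 : (cands [(2, 22), (3, 9), (5, 4)] 51597803520000).filter (fun g => (ordN g) % 25 == 0) = [] := by
    decide +kernel
  rw [h0] at hg
  exact absurd hg List.not_mem_nil

/-- no simple group of order at most 7200 dividing `|Co0|` has order divisible by 25 -/
theorem list_a (hS : AllKnown.{0}) (T : OrderTable.{0}) {S : Type} [Group S] [Finite S] [IsSimpleGroup S]
    (hn : ¬ ∀ a b : S, a * b = b * a) (hd : Nat.card S ∣ 8315553613086720000) (hle : Nat.card S ≤ 7200) :
    ¬ 25 ∣ Nat.card S := by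
  intro h25
  obtain ⟨g, hg, -⟩ := exists_real_filter T (hS S) hn
    (l := [(2, 22), (3, 9), (5, 4), (7, 2), (11, 1), (13, 1), (23, 1)]) (N := 8315553613086720000)
    (by decide +kernel) hd (fun n => n % 25 == 0 && Nat.ble n 7200) (by
      rw [Bool.and_eq_true]
      exact ⟨mod_of_dvd h25, Nat.ble_eq_true_of_le hle⟩)
  have h0 : (cands [(2, 22), (3, 9), (5, 4), (7, 2), (11, 1), (13, 1), (23, 1)] 8315553613086720000).filter
      (fun g => (ordN g) % 25 == 0 && Nat.ble (ordN g) 7200) = [] := by
    decide +kernel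
  rw [h0] at hg
  exact absurd hg List.not_mem_nil

/-- the simple groups of order at most 3316950 dividing `2^22 3^9 5^2 7^2` and divisible by 25 -/
theorem list_d (hS : AllKnown.{0}) (T : OrderTable.{0}) {S : Type} [Group S] [Finite S] [IsSimpleGroup S]
    (hn : ¬ ∀ a b : S, a * b = b * a) (hd : Nat.card S ∣ 101131694899200) (hle : Nat.card S ≤ 3316950)
    (h25 : 25 ∣ Nat.card S) :
    Nonempty (S ≃* ↥(alternatingGroup (Fin 10))) ∨ Spor.IsoJ2 S ∨
      ∃ (F : Type) (_ : Field F) (_ : Fintype F), Fintype.card F = 49 ∧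
        Nonempty (S ≃* Matrix.ProjectiveSpecialLinearGroup (Fin 2) F) := by
  obtain ⟨g, hg, hr⟩ := exists_real_filter T (hS S) hn
    (l := [(2, 22), (3, 9), (5, 2), (7, 2)]) (N := 101131694899200)
    (by decide +kernel) hd (fun n => n % 25 == 0 && Nat.ble n 3316950) (by
      rw [Bool.and_eq_true]
      exact ⟨mod_of_dvd h25, Nat.ble_eq_true_of_le hle⟩)
  have h0 : (cands [(2, 22), (3, 9), (5, 2), (7, 2)] 101131694899200).filter
      (fun g => (ordN g) % 25 == 0 && Nat.ble (ordN g) 3316950) = [.alt 10, .psl 2 49, .j2] := by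
    decide +kernel
  rw [h0] at hg
  simp only [List.mem_cons, List.not_mem_nil, or_false] at hg
  rcases hg with rfl | rfl | rfl
  · exact Or.inl hr
  · exact Or.inr (Or.inr hr)
  · exact Or.inr (Or.inl hr)

/-- the natural representation of `SL_n` -/
noncomputable def slRep (n : ℕ) (F : Type*) [Field F] :
    Matrix.SpecialLinearGroup (Fin n) F →* Module.End F (Fin n → F) where
  toFun g := Matrix.toLin' (g : Matrix (Fin n) (Fin n) F)
  map_one' := by
    rw [Matrix.SpecialLinearGroup.coe_one, Matrix.toLin'_one]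
    rfl
  map_mul' a b := by
    rw [Matrix.SpecialLinearGroup.coe_mul, Matrix.toLin'_mul]
    rfl

theorem slRep_injective (n : ℕ) (F : Type*) [Field F] : Function.Injective (slRep n F) := by
  intro a b h
  apply Subtype.ext
  exact Matrix.toLin'.injective h

theorem det_slRep (n : ℕ) (F : Type*) [Field F] (g : Matrix.SpecialLinearGroup (Fin n) F) :
    LinearMap.det (slRep n F g) = 1 := by
  change LinearMap.det (Matrix.toLin' (g : Matrix (Fin n) (Fin n) F)) = 1
  rw [LinearMap.det_toLin', g.det_coe]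

/-- no elementary abelian subgroup of order 25 in `L₂(49)` -/
theorem no_rank {F : Type} [Field F] [Fintype F] (hF : Fintype.card F = 49) :
    ¬ PRankAtLeast 5 2 (Matrix.ProjectiveSpecialLinearGroup (Fin 2) F) := by
  classical
  intro h
  have hp : Nat.Prime 5 := by norm_num
  have h5 : ((5 : ℕ) : F) ≠ 0 := by
    intro h0
    have h1 : ringChar F ∣ 5 := (CharP.cast_eq_zero_iff F (ringChar F) 5).1 h0
    have h2 : ringChar F ∣ 49 := by
      have h3 : ((Fintype.card F : ℕ) : F) = 0 := FiniteField.cast_card_eq_zero F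
      rw [hF] at h3
      exact (CharP.cast_eq_zero_iff F (ringChar F) 49).1 h3
    have h3 : ringChar F ∣ 1 := by
      have := Nat.dvd_gcd h1 h2
      simpa using this
    have h4 : (ringChar F).Prime := CharP.char_is_prime F (ringChar F)
    exact h4.one_lt.ne' (Nat.dvd_one.1 h3)
  have hZ : ¬ 5 ∣ Nat.card ↥(center (Matrix.SpecialLinearGroup (Fin 2) F)) := by
    intro hd
    have e := Matrix.SpecialLinearGroup.center_equiv_rootsOfUnity' (R := F) (0 : Fin 2)
    have h1 := Nat.card_congr e.toEquiv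
    rw [h1] at hd
    have h2 : Nat.card ↥(rootsOfUnity (Fintype.card (Fin 2)) F) ≤ 2 := by
      have : NeZero (Fintype.card (Fin 2)) := ⟨by simp⟩
      have h3 := card_rootsOfUnity F (Fintype.card (Fin 2))
      rw [← Nat.card_eq_fintype_card] at h3
      simpa using h3
    have h3 := Nat.le_of_dvd Nat.card_pos hd
    omega
  have hfin : Finite (Matrix.SpecialLinearGroup (Fin 2) F) := inferInstance
  obtain ⟨A, hA, hAp, hAc⟩ := GpLn.Rank.pRankAtLeast_of_quot
    (center (Matrix.SpecialLinearGroup (Fin 2) F)) le_rfl hp hZ h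
  let _ : CommGroup ↥A := { (inferInstance : Group ↥A) with mul_comm := fun a b => hA.is_comm.comm a b }
  have h1 := SigZeroU5.card_le_pow_det (K := F) hp h5 1 (Fin 2 → F) (by simp) ↥A
    (fun a => Subtype.ext (hAp a a.2)) ((slRep 2 F).comp A.subtype)
    ((slRep_injective _ F).comp A.subtype_injective) (fun a => det_slRep _ F _)
  have h2 := hAc.trans h1
  norm_num at h2

end Cfsg.Agent.CpAutCoOneFive.Nums
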