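import Cfsg.Agent.CpAutCoOneFive.Cls
import Cfsg.Agent.CpAutCoOneFive.Nums

/-!
# The elements of order five with a fixed space of dimension 8 (helper6)

`comps_a` : the components of `C(a) / O_{5'}(C(a))` are isomorphic to `A₅`.
-/

set_option autoImplicit false

namespace Cfsg.Agent.CpAutCoOneFive.ClA

open Cfsg Subgroup Cfsg.Agent.SporadicStructure.Co0Base
open Cfsg.Agent.CpAutCoOneFive.Elem Cfsg.Agent.CpAutCoOneFive.Nf Cfsg.Agent.CpAutCoOneFive.Cls
open Cfsg.Agent.CpAutBig Cfsg.Agent.OrdDiv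
open Cfsg.Agent.CpAut (AllKnown)
open Cfsg.Agent.LThree (Comps)

theorem T3_le {x : Co0} (hx : x ∈ T3 tri) : T3 tri ≤ centralizer ({x} : Set Co0) := by
  intro g hg
  rw [mem_centralizer_singleton_iff]
  exact T3_comm tri g hg x hx

/-- the conjugation by `r` -/
theorem conj_r (i k l : ZMod 5) : r * E a c d i k l * r⁻¹ = E a c d (i + 4 * k + 2 * l) k (k + 4 * l) := by
  have h1 : r * a * r⁻¹ = E a c d 1 0 0 := by rw [conj_of ra, E_a]
  have h2 : r * c * r⁻¹ = E a c d 4 1 1 := by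
    rw [conj_of rc]
    have := E_acd tri 4 1 1
    rw [pow_one, pow_one] at this
    rw [this]
    rfl
  have h3 : r * d * r⁻¹ = E a c d 2 0 4 := by
    rw [conj_of rd]
    have := E_acd tri 2 0 4
    rw [pow_zero, mul_one] at this
    rw [this]
    rfl
  rw [conj_E tri (v1 := (1, 0, 0)) (v2 := (4, 1, 1)) (v3 := (2, 0, 4)) h1 h2 h3]
  congr 1 <;> ring

/-- the conjugation by `t` -/
theorem conj_t (i k l : ZMod 5) : t * E a c d i k l * t⁻¹ = E a c d (i + 3 * l) (2 * k + l) (3 * l) := by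
  have h1 : t * a * t⁻¹ = E a c d 1 0 0 := by rw [conj_of ta, E_a]
  have h2 : t * c * t⁻¹ = E a c d 0 2 0 := by
    rw [conj_of tc]
    have := E_acd tri 0 2 0
    rw [pow_zero, pow_zero, one_mul, mul_one] at this
    rw [this]
    rfl
  have h3 : t * d * t⁻¹ = E a c d 3 1 3 := by
    rw [conj_of td]
    have := E_acd tri 3 1 3
    rw [pow_one] at this
    rw [this]
    rfl
  rw [conj_E tri (v1 := (1, 0, 0)) (v2 := (0, 2, 0)) (v3 := (3, 1, 3)) h1 h2 h3]
  congr 1 <;> ring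

theorem irr : ∀ i k l m n : ZMod 5, i + 4 * k + 2 * l = m * i → k = m * k → k + 4 * l = m * l →
    i + 3 * l = n * i → 2 * k + l = n * k → 3 * l = n * l → k = 0 ∧ l = 0 := by
  decide +kernel

theorem card_a : Nat.card (centralizer ({a} : Set Co0)) ≤ 72000 := by
  have hfin := CoZero.finite_co0
  refine le_trans (le_of_eq ?_) (FivePerm.card_le isPerm_a)
  apply Nat.card_congr
  exact Equiv.subtypeEquivRight fun x => mem_centralizer_singleton_iff

theorem mem_center_of {x : Co0} (hx : x ∈ centralizer ({x} : Set Co0)) :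
    (⟨x, hx⟩ : ↥(centralizer ({x} : Set Co0))) ∈ center ↥(centralizer ({x} : Set Co0)) := by
  rw [mem_center_iff]
  rintro ⟨g, hg⟩
  exact Subtype.ext (mem_centralizer_singleton_iff.1 hg)

theorem card_sub {x : Co0} (hx : x ∈ T3 tri) : Nat.card ↥((T3 tri).subgroupOf (centralizer ({x} : Set Co0))) = 125 := by
  rw [← card_T3 tri indep]
  exact Nat.card_congr (subgroupOfEquivOfLe (T3_le hx)).toEquiv

theorem isPGroup_sub {x : Co0} (hx : x ∈ T3 tri) :
    IsPGroup 5 ↥((T3 tri).subgroupOf (centralizer ({x} : Set Co0))) :=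
  IsPGroup.of_card (n := 3) (by rw [card_sub hx]; norm_num)

theorem sub_comm {x : Co0} (u : ↥(centralizer ({x} : Set Co0)))
    (hu : u ∈ (T3 tri).subgroupOf (centralizer ({x} : Set Co0))) (v : ↥(centralizer ({x} : Set Co0)))
    (hv : v ∈ (T3 tri).subgroupOf (centralizer ({x} : Set Co0))) : u * v = v * u :=
  Subtype.ext (T3_comm tri u (mem_subgroupOf.1 hu) v (mem_subgroupOf.1 hv))

theorem sub_conj {x w : Co0} (hw : w ∈ centralizer ({x} : Set Co0)) (h : ∀ e ∈ T3 tri, w * e * w⁻¹ ∈ T3 tri)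
    (u : ↥(centralizer ({x} : Set Co0))) (hu : u ∈ (T3 tri).subgroupOf (centralizer ({x} : Set Co0))) :
    (⟨w, hw⟩ : ↥(centralizer ({x} : Set Co0))) * u * (⟨w, hw⟩ : ↥(centralizer ({x} : Set Co0)))⁻¹ ∈
      (T3 tri).subgroupOf (centralizer ({x} : Set Co0)) :=
  mem_subgroupOf.2 (h u (mem_subgroupOf.1 hu))

theorem zpow_sub {x w : Co0} {u v : ↥(centralizer ({x} : Set Co0))} (h : v ∈ zpowers u) : (v : Co0) ∈ zpowers (u : Co0) := by
  obtain ⟨m, rfl⟩ := h
  exact ⟨m, rfl⟩

/-- **The components for the elements with a fixed space of dimension 8.** -/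
theorem comps_a (hS : AllKnown.{0}) (T : OrderTable.{0}) (h4 : ¬ 5 ^ 4 ∣ Nat.card (centralizer ({a} : Set Co0))) :
    Comps 5 ↥(centralizer ({a} : Set Co0)) := by
  have hfin := CoZero.finite_co0
  have ham : a ∈ centralizer ({a} : Set Co0) := mem_centralizer_singleton_iff.2 rfl
  have hrm : r ∈ centralizer ({a} : Set Co0) := mem_centralizer_singleton_iff.2 ra
  have htm : t ∈ centralizer ({a} : Set Co0) := mem_centralizer_singleton_iff.2 ta
  have haT : a ∈ T3 tri := ⟨1, 0, 0, (E_a a c d).symm⟩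
  have hr : ∀ e ∈ T3 tri, r * e * r⁻¹ ∈ T3 tri := by
    rintro _ ⟨i, k, l, rfl⟩
    rw [conj_r]
    exact E_mem tri _ _ _
  have ht : ∀ e ∈ T3 tri, t * e * t⁻¹ ∈ T3 tri := by
    rintro _ ⟨i, k, l, rfl⟩
    rw [conj_t]
    exact E_mem tri _ _ _
  intro K hK
  obtain ⟨hs, hn, h5, hd, h6⟩ := Abs.caseA five (isPGroup_sub haT) (by
      rw [card_sub haT]
      intro h
      apply h4
      have : 5 ^ 4 = 5 * 125 := by norm_num
      rw [this]
      exact h) sub_comm (z := ⟨a, ham⟩) ((Subgroup.orderOf_mk a ham).trans orderOf_a) (mem_center_of ham)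
    (r := ⟨r, hrm⟩) (t := ⟨t, htm⟩) (sub_conj hrm hr) (sub_conj htm ht) (by
      rintro ⟨q, hq⟩ hqT h1 h2
      obtain ⟨i, k, l, rfl⟩ := mem_subgroupOf.1 hqT
      have h1' : r * E a c d i k l * r⁻¹ ∈ zpowers (E a c d i k l) := zpow_sub (w := a) h1
      have h2' : t * E a c d i k l * t⁻¹ ∈ zpowers (E a c d i k l) := zpow_sub (w := a) h2
      obtain ⟨m, hm⟩ := mem_zpowers_E tri h1'
      obtain ⟨n, hn⟩ := mem_zpowers_E tri h2'
      rw [conj_r] at hm
      rw [conj_t] at hn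
      obtain ⟨e1, e2, e3⟩ := E_inj tri indep hm
      obtain ⟨e4, e5, e6⟩ := E_inj tri indep hn
      obtain ⟨hk, hl⟩ := irr i k l m n e1 e2 e3 e4 e5 e6
      subst hk hl
      refine ⟨(i.val : ℤ), Subtype.ext ?_⟩
      change a ^ ((i.val : ℕ) : ℤ) = E a c d i 0 0
      unfold E
      rw [pw_zero, pw_zero, mul_one, mul_one, zpow_natCast]
      rfl) K hK
  have hO := Lib.Cores.pPrimeCore_normal (G := ↥(centralizer ({a} : Set Co0))) 5
  have e1 := (pPrimeCore 5 ↥(centralizer ({a} : Set Co0))).card_eq_card_quotient_mul_card_subgroup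
  have e2 := SevenFix.two_le_core five (by norm_num) a
  have e3 : Nat.card (↥(centralizer ({a} : Set Co0)) ⧸ pPrimeCore 5 ↥(centralizer ({a} : Set Co0))) * 2 ≤ 72000 := by
    have h7 := card_a
    rw [e1] at h7
    exact (Nat.mul_le_mul_left _ e2).trans h7
  have hpos : 0 < Nat.card (↥(centralizer ({a} : Set Co0)) ⧸ pPrimeCore 5 ↥(centralizer ({a} : Set Co0))) := Nat.card_pos
  have e4 := Nat.le_of_dvd hpos hd
  refine Small.inC_of_simple (by norm_num) hs hn ?_
  have hd0 : Nat.card ↥K ∣ 8315553613086720000 := by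
    have h8 : Nat.card ↥K ∣ Nat.card ↥(centralizer ({a} : Set Co0)) :=
      (card_subgroup_dvd_card K).trans (card_quotient_dvd_card _)
    have h9 := h8.trans (card_subgroup_dvd_card (centralizer ({a} : Set Co0)))
    rwa [S0397.result] at h9
  rcases h6 with h6 | h6
  · exfalso
    exact Nums.list_a hS T (fun h => hn ⟨⟨h⟩⟩) hd0 (by omega) (by norm_num at h6; exact h6)
  · have e5 := Nat.le_of_dvd hpos h6
    have e6 : Nat.card ↥K ≤ 100 := by
      by_contra hc
      push Not at hc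
      have : 101 * 101 ≤ Nat.card ↥K * Nat.card ↥K := Nat.mul_le_mul hc hc
      omega
    have hcyc : ¬ IsCyclic ↥K := fun h => hn IsCyclic.isMulCommutative
    have e7 := S0493.result hcyc e6
    obtain ⟨e⟩ := S0494.result e7
    exact Or.inr (Or.inl ⟨5, Or.inl rfl, ⟨e⟩⟩)

end Cfsg.Agent.CpAutCoOneFive.ClA
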