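import Cfsg.Agent.CpAutCoOneFive.Cls
import Cfsg.Agent.CpAutCoOneFive.Nums

/-!
# The elements of order five with a fixed space of dimension 4 (helper6)

`no_comp_c` : `C(c) / O_{5'}(C(c))` has no components.
-/

set_option autoImplicit false

namespace Cfsg.Agent.CpAutCoOneFive.ClC

open Cfsg Subgroup Cfsg.Agent.SporadicStructure.Co0Base
open Cfsg.Agent.CpAutCoOneFive.Elem Cfsg.Agent.CpAutCoOneFive.Nf Cfsg.Agent.CpAutCoOneFive.Cls
open Cfsg.Agent.CpAutBig Cfsg.Agent.OrdDiv
open Cfsg.Agent.CpAut (AllKnown)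
open Cfsg.Agent.LThree (Comps)
open Module
open scoped commutatorElement

theorem not_dvd_c {q : ℕ} (hq : q.Prime) (h7 : 7 ≤ q) : ¬ q ∣ Nat.card (centralizer ({c} : Set Co0)) := by
  have h1 := Fac.finrank_c
  have h2 : 0 < finrank ℚ (LinearMap.ker (SigZeroCo2.Lin.rep c - 1)) := by
    obtain ⟨v, hn, ha, hb⟩ := exists_ab 32 (Or.inl rfl)
    have hv := ne_zero_of_norm hn (by norm_num)
    rw [Module.finrank_pos_iff_exists_ne_zero]
    refine ⟨⟨SigZeroCo2.Lin.toV v, ?_⟩, ?_⟩
    · rw [LinearMap.mem_ker]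
      change SigZeroCo2.Lin.rep c (SigZeroCo2.Lin.toV v) - SigZeroCo2.Lin.toV v = 0
      rw [SigZeroCo2.Lin.rep_toV, fix_c ha hb, sub_self]
    · intro h
      apply hv
      apply SigZeroCo2.Lin.toV_injective
      rw [SigZeroCo2.Lin.toV_zero]
      exact congrArg Subtype.val h
  refine TwoPr.not_dvd five hq (by omega) orderOf_c (by omega) ?_
  have h3 : 6 * (5 - 1) ≤ (q - 1) * (5 - 1) := Nat.mul_le_mul_right _ (by omega)
  omega

theorem card_dvd_c : Nat.card (centralizer ({c} : Set Co0)) ∣ 51597803520000 := by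
  have h1 : Nat.card (centralizer ({c} : Set Co0)) ∣ 51597803520000 * 161161 := by
    have h2 := card_subgroup_dvd_card (centralizer ({c} : Set Co0))
    rw [S0397.result] at h2
    exact h2
  refine Nat.Coprime.dvd_of_dvd_mul_right ?_ h1
  have hc : ∀ q : ℕ, q.Prime → 7 ≤ q → (Nat.card (centralizer ({c} : Set Co0))).Coprime q := fun q hq h7 =>
    ((Nat.Prime.coprime_iff_not_dvd hq).2 (not_dvd_c hq h7)).symm
  have h7 := hc 7 (by norm_num) (by norm_num)
  have h11 := hc 11 (by norm_num) (by norm_num)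
  have h13 := hc 13 (by norm_num) (by norm_num)
  have h23 := hc 23 (by norm_num) (by norm_num)
  have e : 161161 = 7 * 7 * 11 * 13 * 23 := by norm_num
  rw [e]
  exact (((h7.mul_right h7).mul_right h11).mul_right h13).mul_right h23

/-- a quasisimple group modulo its centre is not commutative -/
theorem not_comm_quot {K : Type*} [Group K] (hK : IsQuasisimple K) :
    ¬ ∀ a b : K ⧸ center K, a * b = b * a := by
  intro h
  apply SignalizersComponents.Components.quasisimple_center_ne_top hK
  rw [eq_top_iff]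
  have h1 : commutator K = ⊤ := (Group.isPerfect_def).1 hK.1
  rw [← h1, commutator_def, commutator_le]
  intro a _ b _
  have h2 := h (QuotientGroup.mk' (center K) a) (QuotientGroup.mk' (center K) b)
  have h3 : QuotientGroup.mk' (center K) ⁅a, b⁆ = 1 := by
    rw [map_commutatorElement, commutatorElement_eq_one_iff_mul_comm]
    exact h2
  exact (QuotientGroup.eq_one_iff _).1 h3

theorem P4_le : P4 quad ≤ centralizer ({c} : Set Co0) := by
  rintro _ ⟨i, k, l, j, rfl⟩
  rw [mem_centralizer_singleton_iff]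
  have h1 : Commute (E a c d i k l) c := T3_comm tri _ (E_mem tri i k l) c ⟨0, 1, 0, (E_c a c d).symm⟩
  have h2 : Commute (pw b j) c := (show Commute b c from bc).pow_left _
  exact (h1.mul_left h2).eq

/-- **No components.** -/
theorem no_comp_c (hS : AllKnown.{0}) (T : OrderTable.{0})
    (K : Subgroup (↥(centralizer ({c} : Set Co0)) ⧸ pPrimeCore 5 ↥(centralizer ({c} : Set Co0)))) :
    ¬ IsComponent K := by
  have hfin := CoZero.finite_co0
  have hcm : c ∈ centralizer ({c} : Set Co0) := mem_centralizer_singleton_iff.2 rfl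
  have hcard : Nat.card ↥((P4 quad).subgroupOf (centralizer ({c} : Set Co0))) = 625 := by
    rw [← card_P4]
    exact Nat.card_congr (subgroupOfEquivOfLe P4_le).toEquiv
  have hP : IsPGroup 5 ↥((P4 quad).subgroupOf (centralizer ({c} : Set Co0))) :=
    IsPGroup.of_card (n := 4) (by rw [hcard]; norm_num)
  refine Abs.caseC five hP ?_ (z := ⟨c, hcm⟩) ((Subgroup.orderOf_mk c hcm).trans orderOf_c) ?_ ?_ ?_ K
  · rw [hcard]
    intro h
    have h1 := h.trans (card_subgroup_dvd_card (centralizer ({c} : Set Co0)))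
    rw [S0397.result] at h1
    norm_num at h1
  · rw [mem_center_iff]
    rintro ⟨g, hg⟩
    exact Subtype.ext (mem_centralizer_singleton_iff.1 hg)
  · rintro ⟨x, hx⟩ hxP hcomm
    obtain ⟨i, k, l, j, rfl⟩ := mem_subgroupOf.1 hxP
    have key : ∀ z ∈ P4 quad, z * N a b c d i k l j * z⁻¹ = N a b c d i k l j := by
      intro z hz
      have h1 := hcomm ⟨z, P4_le hz⟩ (mem_subgroupOf.2 hz)
      have h2 : z * N a b c d i k l j = N a b c d i k l j * z := congrArg Subtype.val h1
      rw [h2, mul_inv_cancel_right]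
    have haP : a ∈ P4 quad := ⟨1, 0, 0, 0, by unfold N; rw [E_a, pw_zero, mul_one]⟩
    have hbP : b ∈ P4 quad := ⟨0, 0, 0, 1, by unfold N; rw [E_zero, pw_one, one_mul]⟩
    have h1 := key a haP
    rw [moveA quad] at h1
    have h2 := N_injective (a₁ := (i, k + j, l, j)) (a₂ := (i, k, l, j)) h1
    simp only [Prod.mk.injEq] at h2
    have hj : j = 0 := by
      have := h2.2.1
      exact left_eq_add.1 this.symm
    have h3 := key b hbP
    rw [moveB quad] at h3
    have h4 := N_injective (a₁ := (i + 4 * l, k - i + 2 * l, l, j)) (a₂ := (i, k, l, j)) h3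
    simp only [Prod.mk.injEq] at h4
    have h5 : ∀ i k l : ZMod 5, i + 4 * l = i → k - i + 2 * l = k → i = 0 ∧ l = 0 := by decide
    obtain ⟨hi, hl⟩ := h5 i k l h4.1 h4.2.1
    subst hi hl hj
    refine ⟨(k.val : ℤ), Subtype.ext ?_⟩
    change c ^ ((k.val : ℕ) : ℤ) = N a b c d 0 k 0 0
    unfold N E
    rw [pw_zero, pw_zero, pw_zero, one_mul, mul_one, mul_one, zpow_natCast]
    rfl
  · intro L hL
    have hs := hL.2.2
    refine Nums.list_c hS T (not_comm_quot hL.2) ?_
    have h1 : Nat.card (↥L ⧸ center ↥L) ∣ Nat.card ↥L := card_quotient_dvd_card _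
    exact h1.trans ((card_subgroup_dvd_card L).trans ((card_quotient_dvd_card _).trans card_dvd_c))

theorem comps_c (hS : AllKnown.{0}) (T : OrderTable.{0}) : Comps 5 ↥(centralizer ({c} : Set Co0)) :=
  fun K hK => absurd hK (no_comp_c hS T K)

end Cfsg.Agent.CpAutCoOneFive.ClC
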