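import Cfsg.Agent.CpAutCoOneFive.Fac
import Cfsg.Agent.CoOneType.FrameFix
import Cfsg.Agent.SporadicStructure.StdCross

/-!
# The centralizer of a fixed point free element of order five (helper6)

`y` is conjugate to `d`; `card_mono` : at most four elements of the monomial group commute with `y`;
`card_le` : `|C(d)| ≤ 4 * 8292375`.
-/

set_option autoImplicit false

namespace Cfsg.Agent.CpAutCoOneFive.Rigid

open Cfsg Subgroup Cfsg.Agent.SporadicStructure.Co0Base
open Cfsg.Agent.SporadicStructure.Co0Matrix Cfsg.Agent.CoOneType.CoEval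
open Cfsg.Agent.SporadicA Cfsg.Agent.SporadicA.GolayBase
open Cfsg.Agent.SporadicA.Co1Simple (N mem_N_iff)
open Cfsg.Agent.CpAutCoOneFive.Mat Cfsg.Agent.CpAutCoOneFive.Elem
open Cfsg.Agent.CpAutBig

/-- the matrix of `y` -/
def mm (i j : ℕ) : ℤ := (cY.getD j []).getD i 0

theorem col_check : (List.range 24).all (fun j => eqL (ap rY (eL j)) (cY.getD j [])) = true := by decide +kernel

theorem y_apply (p q : GolayPt) : ((y • e8 q : leechLattice) : GolayPt → ℤ) p = mm (idx p) (idx q) := by
  have h1 := (rep 7).apply (v := e8 q) (l := eL (idx q)) (Fac.length_eL _).le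
    (by rw [← Fac.vec_eL (idx_lt q), pt_idx])
  have h2 := List.all_eq_true.1 col_check (idx q) (List.mem_range.2 (idx_lt q))
  have h3 : M 7 = rY := rfl
  rw [h3, eqL_eq h2] at h1
  have h4 : ((y • e8 q : leechLattice) : GolayPt → ℤ) = vec (cY.getD (idx q) []) := h1
  rw [h4, vec_apply]
  rfl

/-! ### Signed permutations commuting with `y` -/

/-- the sign -/
def sg (c : Finset GolayPt) (p : GolayPt) : ℤ := by
  classical
  exact if p ∈ c then -1 else 1

theorem sg_mul (c : Finset GolayPt) (p : GolayPt) : sg c p * sg c p = 1 := by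
  unfold sg
  split <;> norm_num

theorem mono_apply {A : Co0} {σ : Equiv.Perm GolayPt} {c : Finset GolayPt}
    (hA : ∀ v : leechLattice, ((A • v : leechLattice) : GolayPt → ℤ) = signedPerm σ c v) (v : leechLattice)
    (p : GolayPt) : ((A • v : leechLattice) : GolayPt → ℤ) (σ p) = sg c (σ p) * (v : GolayPt → ℤ) p := by
  rw [hA, signedPerm_apply, Equiv.symm_apply_apply]
  unfold sg
  split <;> simp

theorem mono_e8 {A : Co0} {σ : Equiv.Perm GolayPt} {c : Finset GolayPt}
    (hA : ∀ v : leechLattice, ((A • v : leechLattice) : GolayPt → ℤ) = signedPerm σ c v) (q : GolayPt) :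
    A • e8 q = sg c (σ q) • e8 (σ q) := by
  apply Subtype.ext
  funext p
  obtain ⟨p', rfl⟩ := σ.surjective p
  rw [mono_apply hA]
  change sg c (σ p') * ((e8 q : leechLattice) : GolayPt → ℤ) p' = sg c (σ q) * ((e8 (σ q) : leechLattice) : GolayPt → ℤ) (σ p')
  rw [e8_coe, e8_coe, Pi.single_apply, Pi.single_apply]
  by_cases h : p' = q
  · rw [h, if_pos rfl, if_pos rfl]
  · rw [if_neg h, if_neg (fun h1 => h (σ.injective h1)), mul_zero, mul_zero]

/-- the matrix is invariant up to signs -/
theorem mm_inv {A : Co0} {σ : Equiv.Perm GolayPt} {c : Finset GolayPt}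
    (hA : ∀ v : leechLattice, ((A • v : leechLattice) : GolayPt → ℤ) = signedPerm σ c v) (hc : A * y = y * A)
    (p q : GolayPt) : mm (idx (σ p)) (idx (σ q)) = sg c (σ p) * sg c (σ q) * mm (idx p) (idx q) := by
  have h1 : ((y • A • e8 q : leechLattice) : GolayPt → ℤ) (σ p) = ((A • y • e8 q : leechLattice) : GolayPt → ℤ) (σ p) := by
    rw [← mul_smul, ← mul_smul, hc]
  rw [mono_apply hA, mono_e8 hA, y_apply] at h1
  have h2 : ((y • (sg c (σ q) • e8 (σ q)) : leechLattice) : GolayPt → ℤ) (σ p) =
      sg c (σ q) * ((y • e8 (σ q) : leechLattice) : GolayPt → ℤ) (σ p) := by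
    unfold sg
    split
    · rw [neg_one_smul, neg_one_mul, co0_smul_neg]
      rfl
    · rw [one_smul, one_mul]
  rw [h2, y_apply] at h1
  have h3 := sg_mul c (σ q)
  calc mm (idx (σ p)) (idx (σ q)) = (sg c (σ q) * sg c (σ q)) * mm (idx (σ p)) (idx (σ q)) := by rw [h3, one_mul]
    _ = sg c (σ q) * (sg c (σ q) * mm (idx (σ p)) (idx (σ q))) := by ring
    _ = sg c (σ q) * (sg c (σ p) * mm (idx p) (idx q)) := by rw [h1]
    _ = _ := by ring

/-- invariants of the coordinates -/
def nextK (K : List ℤ) : List ℤ :=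
  (List.range 24).map fun i => ((List.range 24).map fun j => mm j i * (mm j i - mm i j) * K.getD j 0).sum

def K0 : List ℤ := [-1, -3, -1, -3, -1, -3, -1, -3, -1, 1, -3, -1, -1, -3, -3, -3, -3, -1, -3, -1, -1, -5, -3, -1]
def K1 : List ℤ := [-160, -176, -96, -112, -160, -112, -160, -176, -160, -176, -112, -160, -96, -112, -112, -176, -176, -224, -112, -160, -160, -96, -112, -224]
def K2 : List ℤ := [-11264, -10624, -13312, -12288, -12416, -12288, -12416, -10112, -12800, -12928, -11648, -12672, -13312, -11648, -13696, -10112, -10624, -11264, -12544, -12672, -12800, -8448, -12544, -11264]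
def K3 : List ℤ := [-1074688, -847360, -1088000, -838144, -1073664, -838144, -1073664, -846336, -1062400, -1294848, -836096, -1042944, -1096192, -836096, -819712, -846336, -839168, -1103360, -840192, -1042944, -1062400, -681472, -840192, -1103360]

theorem K0_check : (List.range 24).all (fun i => decide (K0.getD i 0 = mm i i)) = true := by decide +kernel
theorem K1_check : eqL (nextK K0) K1 = true := by decide +kernel
theorem K2_check : eqL (nextK K1) K2 = true := by decide +kernel
theorem K3_check : eqL (nextK K2) K3 = true := by decide +kernel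

theorem sum_list (f : ℕ → ℤ) (n : ℕ) : ((List.range n).map f).sum = ∑ i ∈ Finset.range n, f i := by
  induction n with
  | zero => rfl
  | succ n ih => rw [List.range_succ, List.map_append, List.sum_append, ih, Finset.sum_range_succ]; simp

theorem getD_nextK (K : List ℤ) (p : GolayPt) : (nextK K).getD (idx p) 0 =
    ∑ q : GolayPt, mm (idx q) (idx p) * (mm (idx q) (idx p) - mm (idx p) (idx q)) * K.getD (idx q) 0 := by
  have h1 : (nextK K).getD (idx p) 0 =
      ((List.range 24).map fun j => mm j (idx p) * (mm j (idx p) - mm (idx p) j) * K.getD j 0).sum := by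
    unfold nextK
    rw [List.getD_eq_getElem _ _ (by rw [List.length_map, List.length_range]; exact idx_lt p), List.getElem_map,
      List.getElem_range]
  rw [h1, sum_pt, sum_list]
  refine Finset.sum_congr rfl fun j hj => ?_
  rw [idx_pt (Finset.mem_range.1 hj)]

theorem step {A : Co0} {σ : Equiv.Perm GolayPt} {c : Finset GolayPt}
    (hA : ∀ v : leechLattice, ((A • v : leechLattice) : GolayPt → ℤ) = signedPerm σ c v) (hc : A * y = y * A)
    {K : List ℤ} (hK : ∀ p, K.getD (idx (σ p)) 0 = K.getD (idx p) 0) (p : GolayPt) :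
    (nextK K).getD (idx (σ p)) 0 = (nextK K).getD (idx p) 0 := by
  rw [getD_nextK, getD_nextK, ← Equiv.sum_comp σ]
  refine Finset.sum_congr rfl fun q _ => ?_
  rw [hK, mm_inv hA hc, mm_inv hA hc]
  have h1 := sg_mul c (σ p)
  have h2 := sg_mul c (σ q)
  have h3 : sg c (σ q) * sg c (σ p) * mm (idx q) (idx p) * (sg c (σ q) * sg c (σ p) * mm (idx q) (idx p) -
      sg c (σ p) * sg c (σ q) * mm (idx p) (idx q)) =
      (sg c (σ q) * sg c (σ q)) * (sg c (σ p) * sg c (σ p)) * (mm (idx q) (idx p) *
        (mm (idx q) (idx p) - mm (idx p) (idx q))) := by ring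
  rw [h3, h1, h2]
  ring

theorem K3_inv {A : Co0} {σ : Equiv.Perm GolayPt} {c : Finset GolayPt}
    (hA : ∀ v : leechLattice, ((A • v : leechLattice) : GolayPt → ℤ) = signedPerm σ c v) (hc : A * y = y * A)
    (p : GolayPt) : K3.getD (idx (σ p)) 0 = K3.getD (idx p) 0 := by
  have h0 : ∀ p, K0.getD (idx (σ p)) 0 = K0.getD (idx p) 0 := by
    intro p
    have key : ∀ p : GolayPt, K0.getD (idx p) 0 = mm (idx p) (idx p) := fun p =>
      of_decide_eq_true (List.all_eq_true.1 K0_check (idx p) (List.mem_range.2 (idx_lt p)))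
    rw [key, key, mm_inv hA hc, sg_mul, one_mul]
  have h1 := step hA hc h0
  rw [eqL_eq K1_check] at h1
  have h2 := step hA hc h1
  rw [eqL_eq K2_check] at h2
  have h3 := step hA hc h2
  rw [eqL_eq K3_check] at h3
  exact h3 p

theorem K3_single : ∀ i ∈ [0, 1, 2, 9, 12, 14, 16, 21], ∀ j < 24, K3.getD j 0 = K3.getD i 0 → j = i := by decide +kernel

theorem K3_pair : ∀ j < 24, K3.getD j 0 = K3.getD 3 0 → j = 3 ∨ j = 5 := by decide +kernel

def sepY : List ℕ := [11100169, 4526126, 3297305, 90318, 430605, 10486557, 6379592]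
def nineY : ℕ := 2183695

theorem sepY_check : ∀ m ∈ sepY, isCode m = true ∧ popcount m = 8 ∧ 5 ≤ popcount (m &&& nineY) := by
  decide +kernel

theorem sepY_separates : ∀ i < 24, ∀ j < 24, (∀ m ∈ sepY, m.testBit i = m.testBit j) → i = j := by
  decide +kernel

theorem nineY_check : ∀ i < 24, nineY.testBit i = true → i ∈ [0, 1, 2, 9, 12, 14, 16, 21] ∨ i = 3 := by decide +kernel

theorem row_ne : ∀ j < 24, mm 3 j ≠ 0 := by decide +kernel

/-- an element of the monomial group commuting with `y` and fixing a coordinate vector is trivial -/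
theorem eq_one {A : Co0} (hN : A ∈ N) (hc : A * y = y * A) (he : A • e8 (pt 3) = e8 (pt 3)) : A = 1 := by
  obtain ⟨σ, hσ, c, -, hA⟩ := Cfsg.Agent.SporadicStructure.StdCross.exists_signedPerm A ((mem_N_iff _).1 hN)
  have hfix0 : σ (pt 3) = pt 3 ∧ sg c (pt 3) = 1 := by
    rw [mono_e8 hA] at he
    have h1 := congrArg (fun v : leechLattice => (v : GolayPt → ℤ) (pt 3)) he
    have h2 : sg c (σ (pt 3)) * ((e8 (σ (pt 3)) : leechLattice) : GolayPt → ℤ) (pt 3) =
        ((e8 (pt 3) : leechLattice) : GolayPt → ℤ) (pt 3) := h1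
    rw [e8_coe, e8_coe, Pi.single_apply, Pi.single_eq_same] at h2
    by_cases h3 : pt 3 = σ (pt 3)
    · rw [if_pos h3, ← h3] at h2
      exact ⟨h3.symm, by omega⟩
    · rw [if_neg h3, mul_zero] at h2
      omega
  have hσ1 : σ = 1 := by
    apply Tab.eq_one_of_fix sepY_check sepY_separates hσ
    intro p hp
    rw [mem_fin] at hp
    apply idx_injective
    rcases nineY_check _ (idx_lt p) hp with h1 | h1
    · exact K3_single _ h1 _ (idx_lt _) (K3_inv hA hc p)
    · rw [← pt_idx p, h1, hfix0.1]
  have hsg : ∀ q, sg c q = 1 := by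
    intro q
    have h1 := mm_inv hA hc (pt 3) q
    rw [hσ1] at h1
    have h2 : mm (idx (pt 3)) (idx q) = sg c (pt 3) * sg c q * mm (idx (pt 3)) (idx q) := h1
    rw [hfix0.2, one_mul, idx_pt (by norm_num)] at h2
    have h3 := row_ne (idx q) (idx_lt q)
    have h4 : (sg c q - 1) * mm 3 (idx q) = 0 := by
      rw [sub_mul, one_mul, ← h2, sub_self]
    rcases mul_eq_zero.1 h4 with h5 | h5
    · linarith
    · exact absurd h5 h3
  apply co0_ext
  intro v
  apply Subtype.ext
  funext p
  have h1 := mono_apply hA v p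
  rw [hσ1] at h1
  have h2 : ((A • v : leechLattice) : GolayPt → ℤ) p = sg c p * (v : GolayPt → ℤ) p := h1
  rw [h2, hsg, one_mul, one_smul]

/-- the image of the coordinate vector -/
theorem img {A : Co0} (hN : A ∈ N) (hc : A * y = y * A) :
    A • e8 (pt 3) = e8 (pt 3) ∨ A • e8 (pt 3) = -e8 (pt 3) ∨ A • e8 (pt 3) = e8 (pt 5) ∨
      A • e8 (pt 3) = -e8 (pt 5) := by
  obtain ⟨σ, hσ, c, -, hA⟩ := Cfsg.Agent.SporadicStructure.StdCross.exists_signedPerm A ((mem_N_iff _).1 hN)
  have h1 := K3_inv hA hc (pt 3)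
  rw [idx_pt (by norm_num)] at h1
  have h2 := K3_pair _ (idx_lt _) h1
  have h3 : σ (pt 3) = pt 3 ∨ σ (pt 3) = pt 5 := by
    rcases h2 with h2 | h2
    · left; rw [← pt_idx (σ (pt 3)), h2]
    · right; rw [← pt_idx (σ (pt 3)), h2]
  have h4 : ∀ q : GolayPt, sg c q • e8 q = e8 q ∨ sg c q • e8 q = -e8 q := by
    intro q
    unfold sg
    split
    · right; rw [neg_one_smul]
    · left; rw [one_smul]
  rw [mono_e8 hA]
  rcases h3 with h3 | h3 <;> rw [h3] <;> rcases h4 (pt 3) with h5 | h5 <;> rcases h4 (pt 5) with h6 | h6 <;>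
    simp only [h5, h6, true_or, or_true]

/-- **At most four monomial elements commute with `y`.** -/
theorem card_mono : Nat.card {A : Co0 // A * y = y * A ∧ A ∈ N} ≤ 4 := by
  classical
  let S : Finset leechLattice := {e8 (pt 3), -e8 (pt 3), e8 (pt 5), -e8 (pt 5)}
  let f : {A : Co0 // A * y = y * A ∧ A ∈ N} → S := fun A => ⟨A.1 • e8 (pt 3), by
    simp only [S, Finset.mem_insert, Finset.mem_singleton]
    exact img A.2.2 A.2.1⟩
  have hf : Function.Injective f := by
    rintro ⟨A, hAc, hAN⟩ ⟨B, hBc, hBN⟩ h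
    have h1 : A • e8 (pt 3) = B • e8 (pt 3) := congrArg Subtype.val h
    apply Subtype.ext
    change A = B
    have h2 : B⁻¹ * A = 1 := by
      apply eq_one (N.mul_mem (N.inv_mem hBN) hAN)
      · have h3 : B⁻¹ * y = y * B⁻¹ := by
          rw [inv_mul_eq_iff_eq_mul, ← mul_assoc, hBc, mul_assoc, mul_inv_cancel, mul_one]
        rw [mul_assoc, hAc, ← mul_assoc, h3, mul_assoc]
      · rw [mul_smul, h1, inv_smul_smul]
    exact (inv_mul_eq_one.1 h2).symm
  have h2 := Nat.card_le_card_of_injective f hf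
  rw [Nat.card_eq_fintype_card (α := S), Fintype.card_coe] at h2
  exact h2.trans Finset.card_le_four

theorem card_le_y : Nat.card ↥(centralizer ({y} : Set Co0)) ≤ 33169500 := by
  have hfin := CoZero.finite_co0
  have h1 : Nat.card ↥(centralizer ({y} : Set Co0) ⊓ N : Subgroup Co0) ≤ 4 := by
    refine le_trans (le_of_eq ?_) card_mono
    apply Nat.card_congr
    refine Equiv.subtypeEquivRight fun A => ?_
    rw [mem_inf, mem_centralizer_singleton_iff]
  have h2 : Nat.card ↥(centralizer ({y} : Set Co0)) =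
      Nat.card ↥(N.subgroupOf (centralizer ({y} : Set Co0))) * N.relIndex (centralizer ({y} : Set Co0)) := by
    rw [relIndex, card_mul_index]
  have h3 : N.relIndex (centralizer ({y} : Set Co0)) ≤ 8292375 := by
    rw [← CoOneType.FrameFix.index_N, ← relIndex_top_right]
    refine relIndex_le_of_le_right le_top ?_
    rw [relIndex_top_right, CoOneType.FrameFix.index_N]
    norm_num
  have h4 : Nat.card ↥(N.subgroupOf (centralizer ({y} : Set Co0))) =
      Nat.card ↥(centralizer ({y} : Set Co0) ⊓ N : Subgroup Co0) := by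
    rw [← card_map_of_injective (centralizer ({y} : Set Co0)).subtype_injective, subgroupOf_map_subtype, inf_comm]
  rw [h2, h4]
  calc _ ≤ 4 * 8292375 := Nat.mul_le_mul h1 h3
    _ = 33169500 := by norm_num

theorem y_eq : y = g * d * g⁻¹ := by
  rw [gd, mul_inv_cancel_right]

/-- **The order of the centralizer.** -/
theorem card_le : Nat.card ↥(centralizer ({d} : Set Co0)) ≤ 33169500 := by
  have h1 := CoZero.map_centralizer g d
  rw [← y_eq] at h1
  refine le_trans (le_of_eq ?_) card_le_y
  rw [← h1]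
  exact (card_map_of_injective (MulAut.conj g).injective).symm

end Cfsg.Agent.CpAutCoOneFive.Rigid
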