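import Cfsg.Agent.CpAutCoOneFive.ClA
import Cfsg.Agent.CpAutCoOneFive.Rigid

/-!
# The elements of order five without fixed vectors (helper6)

`comps_d` : the components of `C(d) / O_{5'}(C(d))` are isomorphic to `A₁₀` or `J₂`.
-/

set_option autoImplicit false

namespace Cfsg.Agent.CpAutCoOneFive.ClD

open Cfsg Subgroup Cfsg.Agent.SporadicStructure.Co0Base
open Cfsg.Agent.CpAutCoOneFive.Elem Cfsg.Agent.CpAutCoOneFive.Nf Cfsg.Agent.CpAutCoOneFive.Cls
open Cfsg.Agent.CpAutCoOneFive.ClA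
open Cfsg.Agent.CpAutBig Cfsg.Agent.OrdDiv
open Cfsg.Agent.CpAut (AllKnown)
open Cfsg.Agent.LThree (Comps)

/-- the conjugation by `s` -/
theorem conj_s (i k l : ZMod 5) :
    s * E a c d i k l * s⁻¹ = E a c d (3 * i + 4 * k) (3 * i + k) (2 * i + 2 * k + l) := by
  have h1 : s * a * s⁻¹ = E a c d 3 3 2 := by
    rw [conj_of sa]
    have := E_acd tri 3 3 2
    rw [this]
    rfl
  have h2 : s * c * s⁻¹ = E a c d 4 1 2 := by
    rw [conj_of sc]
    have := E_acd tri 4 1 2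
    rw [pow_one] at this
    rw [this]
    rfl
  have h3 : s * d * s⁻¹ = E a c d 0 0 1 := by rw [conj_of sd, E_d]
  rw [conj_E tri (v1 := (3, 3, 2)) (v2 := (4, 1, 2)) (v3 := (0, 0, 1)) h1 h2 h3]
  congr 1 <;> ring

theorem irr1 : ∀ i k m : ZMod 5, 3 * i + 4 * k = m * i → 3 * i + k = m * k → i = 0 ∧ k = 0 := by
  decide +kernel

theorem irr2 : ∀ i k m : ZMod 5, 3 * (3 * i + 4 * k) + 4 * (3 * i + k) = m * i →
    3 * (3 * i + 4 * k) + (3 * i + k) = m * k → i = 0 ∧ k = 0 := by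
  decide +kernel

theorem not_dvd_d {q : ℕ} (hq : q.Prime) (h11 : 11 ≤ q) : ¬ q ∣ Nat.card (centralizer ({d} : Set Co0)) := by
  refine TwoPrimes.not_dvd_of_free five hq (by omega) ?_ orderOf_d Fac.free_d
  have : 10 * 4 ≤ (q - 1) * (5 - 1) := Nat.mul_le_mul (by omega) (by omega)
  omega

theorem card_dvd_d : Nat.card (centralizer ({d} : Set Co0)) ∣ 2528292372480000 := by
  have h1 : Nat.card (centralizer ({d} : Set Co0)) ∣ 2528292372480000 * 3289 := by
    have h2 := card_subgroup_dvd_card (centralizer ({d} : Set Co0))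
    rw [S0397.result] at h2
    exact h2
  refine Nat.Coprime.dvd_of_dvd_mul_right ?_ h1
  have hc : ∀ q : ℕ, q.Prime → 11 ≤ q → (Nat.card (centralizer ({d} : Set Co0))).Coprime q := fun q hq h11 =>
    ((Nat.Prime.coprime_iff_not_dvd hq).2 (not_dvd_d hq h11)).symm
  have h11 := hc 11 (by norm_num) (by norm_num)
  have h13 := hc 13 (by norm_num) (by norm_num)
  have h23 := hc 23 (by norm_num) (by norm_num)
  have e : 3289 = 11 * 13 * 23 := by norm_num
  rw [e]
  exact (h11.mul_right h13).mul_right h23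

theorem dvd_of_five {n : ℕ} (h : n ∣ 2528292372480000) (h5 : ¬ 125 ∣ n) : n ∣ 101131694899200 := by
  have e1 : 2528292372480000 = 625 * 4045267795968 := by norm_num
  have e2 : 101131694899200 = 25 * 4045267795968 := by norm_num
  have hco : Nat.Coprime 625 4045267795968 := by norm_num
  rw [e1] at h
  have h2 : Nat.gcd n (625 * 4045267795968) = Nat.gcd n 625 * Nat.gcd n 4045267795968 := hco.gcd_mul n
  rw [Nat.gcd_eq_left h] at h2
  rw [h2, e2]
  refine mul_dvd_mul ?_ (Nat.gcd_dvd_right _ _)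
  have h3 : Nat.gcd n 625 ∣ 5 ^ 4 := Nat.gcd_dvd_right n 625
  obtain ⟨j, hj, hj2⟩ := (Nat.dvd_prime_pow five).1 h3
  have h4 : Nat.gcd n 625 ∣ n := Nat.gcd_dvd_left _ _
  rw [hj2] at h4 ⊢
  have hj3 : j ≤ 2 := by
    by_contra hc
    push Not at hc
    apply h5
    exact (pow_dvd_pow 5 hc).trans h4
  exact pow_dvd_pow 5 hj3

theorem pow_five {e : Co0} (he : e ∈ T3 tri) : e ^ 5 = 1 := by
  obtain ⟨i, k, l, rfl⟩ := he
  rw [E_pow tri]
  have : ((5 : ℕ) : ZMod 5) = 0 := rfl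
  rw [this, zero_mul, zero_mul, zero_mul, E_zero]

theorem rank_of_equiv {X Y : Type*} [Group X] [Group Y] (e : X ≃* Y) {p k : ℕ} (h : PRankAtLeast p k X) :
    PRankAtLeast p k Y := by
  obtain ⟨A, hA, hAp, hAc⟩ := h
  refine ⟨A.map e.toMonoidHom, ?_, ?_, ?_⟩
  · refine ⟨⟨?_⟩⟩
    rintro ⟨_, u, hu, rfl⟩ ⟨_, v, hv, rfl⟩
    have h1 : u * v = v * u := congrArg Subtype.val (hA.is_comm.comm ⟨u, hu⟩ ⟨v, hv⟩)
    apply Subtype.ext
    change e u * e v = e v * e u
    rw [← map_mul, ← map_mul, h1]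
  · rintro _ ⟨u, hu, rfl⟩
    change (e u) ^ p = 1
    rw [← map_pow, hAp u hu, map_one]
  · rw [← Nat.card_congr (A.equivMapOfInjective e.toMonoidHom e.injective).toEquiv]
    exact hAc

/-- **The components for the elements without fixed vectors.** -/
theorem comps_d (hS : AllKnown.{0}) (T : OrderTable.{0}) (h4 : ¬ 5 ^ 4 ∣ Nat.card (centralizer ({d} : Set Co0))) :
    Comps 5 ↥(centralizer ({d} : Set Co0)) := by
  have hfin := CoZero.finite_co0
  have : Fact (Nat.Prime 5) := ⟨five⟩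
  have hdm : d ∈ centralizer ({d} : Set Co0) := mem_centralizer_singleton_iff.2 rfl
  have hsm : s ∈ centralizer ({d} : Set Co0) := mem_centralizer_singleton_iff.2 sd
  have hdT : d ∈ T3 tri := ⟨0, 0, 1, (E_d a c d).symm⟩
  have hs : ∀ e ∈ T3 tri, s * e * s⁻¹ ∈ T3 tri := by
    rintro _ ⟨i, k, l, rfl⟩
    rw [conj_s]
    exact E_mem tri _ _ _
  have hST : ¬ 5 * Nat.card ↥((T3 tri).subgroupOf (centralizer ({d} : Set Co0))) ∣
      Nat.card ↥(centralizer ({d} : Set Co0)) := by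
    rw [card_sub hdT]
    intro h
    apply h4
    have : 5 ^ 4 = 5 * 125 := by norm_num
    rw [this]
    exact h
  have hfinish : ∀ l : ZMod 5, ∀ h : E a c d 0 0 l ∈ centralizer ({d} : Set Co0),
      (⟨E a c d 0 0 l, h⟩ : ↥(centralizer ({d} : Set Co0))) ∈ zpowers (⟨d, hdm⟩ : ↥(centralizer ({d} : Set Co0))) := by
    intro l h
    refine ⟨(l.val : ℤ), Subtype.ext ?_⟩
    change d ^ ((l.val : ℕ) : ℤ) = E a c d 0 0 l
    unfold E
    rw [pw_zero, pw_zero, one_mul, one_mul, zpow_natCast]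
    rfl
  intro K hK
  obtain ⟨hsi, hn, hd, h25⟩ := Abs.caseD five (isPGroup_sub hdT) hST h4 sub_comm (z := ⟨d, hdm⟩)
    ((Subgroup.orderOf_mk d hdm).trans orderOf_d) (mem_center_of hdm)
    (s := ⟨s, hsm⟩) (sub_conj hsm hs) (by
      rintro ⟨q, hq⟩ hqT h1
      obtain ⟨i, k, l, rfl⟩ := mem_subgroupOf.1 hqT
      have h1' : s * E a c d i k l * s⁻¹ ∈ zpowers (E a c d i k l) := zpow_sub (w := d) h1
      obtain ⟨m, hm⟩ := mem_zpowers_E tri h1'
      rw [conj_s] at hm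
      obtain ⟨e1, e2, -⟩ := E_inj tri indep hm
      obtain ⟨hi, hk⟩ := irr1 i k m e1 e2
      subst hi hk
      exact hfinish l hq) (by
      rintro ⟨q, hq⟩ hqT h1
      obtain ⟨i, k, l, rfl⟩ := mem_subgroupOf.1 hqT
      have h1' : (s * s) * E a c d i k l * (s * s)⁻¹ ∈ zpowers (E a c d i k l) := zpow_sub (w := d) h1
      have h2 : (s * s) * E a c d i k l * (s * s)⁻¹ = s * (s * E a c d i k l * s⁻¹) * s⁻¹ := by group
      rw [h2] at h1'
      obtain ⟨m, hm⟩ := mem_zpowers_E tri h1'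
      rw [conj_s, conj_s] at hm
      obtain ⟨e1, e2, -⟩ := E_inj tri indep hm
      obtain ⟨hi, hk⟩ := irr2 i k m e1 e2
      subst hi hk
      exact hfinish l hq) K hK
  have hO := Lib.Cores.pPrimeCore_normal (G := ↥(centralizer ({d} : Set Co0))) 5
  have e1 := (pPrimeCore 5 ↥(centralizer ({d} : Set Co0))).card_eq_card_quotient_mul_card_subgroup
  have e2 := SevenFix.two_le_core five (by norm_num) d
  have e3 : Nat.card (↥(centralizer ({d} : Set Co0)) ⧸ pPrimeCore 5 ↥(centralizer ({d} : Set Co0))) * 2 ≤ 33169500 := by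
    have h7 := Rigid.card_le
    rw [e1] at h7
    exact (Nat.mul_le_mul_left _ e2).trans h7
  have hpos : 0 < Nat.card (↥(centralizer ({d} : Set Co0)) ⧸ pPrimeCore 5 ↥(centralizer ({d} : Set Co0))) := Nat.card_pos
  have e4 := Nat.le_of_dvd hpos hd
  have hdv : 5 * Nat.card ↥K ∣ Nat.card ↥(centralizer ({d} : Set Co0)) := hd.trans (card_quotient_dvd_card _)
  have hK0 : Nat.card ↥K ∣ 101131694899200 := by
    refine dvd_of_five (((dvd_mul_left _ _).trans hdv).trans card_dvd_d) ?_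
    intro h
    apply h4
    refine Dvd.dvd.trans ?_ hdv
    have : 5 ^ 4 = 5 * 125 := by norm_num
    rw [this]
    exact mul_dvd_mul_left 5 h
  refine Small.inC_of_simple (by norm_num) hsi hn ?_
  rcases Nums.list_d hS T (fun h => hn ⟨⟨h⟩⟩) hK0 (by omega) h25 with h | h | ⟨F, _, _, hF, ⟨e⟩⟩
  · exact Or.inr (Or.inl ⟨10, Or.inr (Or.inl rfl), h⟩)
  · exact Or.inr (Or.inr (Or.inr (Or.inr (Or.inl ⟨rfl, Or.inr (Or.inr (Or.inl h))⟩))))
  · exfalso
    apply Nums.no_rank hF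
    have hrk : PRankAtLeast 5 2 ↥K := by
      obtain ⟨TT, hT⟩ := Abs.exists_image five (isPGroup_sub hdT) hST
      obtain ⟨Q, hQ⟩ := Abs.exists_sylow_comp five TT hK
      refine ⟨Q, ⟨⟨?_⟩⟩, ?_, ?_⟩
      · rintro ⟨u, hu⟩ ⟨v, hv⟩
        rw [hQ, mem_subgroupOf, hT] at hu hv
        obtain ⟨u', hu', hu''⟩ := hu
        obtain ⟨v', hv', hv''⟩ := hv
        apply Subtype.ext
        apply Subtype.ext
        change (u : ↥(centralizer ({d} : Set Co0)) ⧸ pPrimeCore 5 ↥(centralizer ({d} : Set Co0))) * v = v * u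
        rw [← hu'', ← hv'', ← map_mul, sub_comm u' hu' v' hv', map_mul]
      · intro u hu
        rw [hQ, mem_subgroupOf, hT] at hu
        obtain ⟨u', hu', hu''⟩ := hu
        apply Subtype.ext
        change (u : ↥(centralizer ({d} : Set Co0)) ⧸ pPrimeCore 5 ↥(centralizer ({d} : Set Co0))) ^ 5 = 1
        rw [← hu'', ← map_pow]
        have h6 : u' ^ 5 = 1 := Subtype.ext (pow_five (mem_subgroupOf.1 hu'))
        rw [h6, map_one]
      · exact Nat.le_of_dvd Nat.card_pos (Q.pow_dvd_card_of_pow_dvd_card h25)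
    exact rank_of_equiv e hrk

end Cfsg.Agent.CpAutCoOneFive.ClD
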