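import Cfsg.Agent.CpAutCoOneFive.MatRel
import Cfsg.Agent.CpAutCoOneFive.FivePerm
import Cfsg.Agent.CpAutBig.CoZero

/-!
# The elements `a b c d` of order five of `Co₀` and some elements normalizing `⟨a, c, d⟩` (helper6)
-/

set_option autoImplicit false

namespace Cfsg.Agent.CpAutCoOneFive.Elem

open Cfsg Cfsg.Agent.SporadicStructure.Co0Base
open Cfsg.Agent.SporadicStructure.Co0Matrix Cfsg.Agent.CoOneType.CoEval
open Cfsg.Agent.SporadicA
open Cfsg.Agent.CpAutCoOneFive.Mat

/-- a permutation of cycle type `1^4 5^4` -/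
def a : Co0 := e 0
def b : Co0 := e 1
/-- without fixed vectors -/
def d : Co0 := e 2
def h : Co0 := e 3
/-- commutes with `d` -/
def s : Co0 := e 4
/-- commutes with `a` -/
def r : Co0 := e 5
/-- commutes with `a` -/
def t : Co0 := e 6
/-- a conjugate of `d` -/
def y : Co0 := e 7
def g : Co0 := e 8

/-- the centre of a Sylow 5-subgroup -/
def c : Co0 := a * b * a⁻¹ * b⁻¹

theorem e9 : e 9 = (e 0)⁻¹ := rfl

theorem e10 : e 10 = (e 1)⁻¹ := rfl

theorem eq_of_eqB {w w' : List ℕ} (hw : eqB w w' = true) : (w.map e).prod = (w'.map e).prod := by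
  apply eq_of_fix
  apply Subtype.ext
  have h1 := (fold_spec rep w (l := betaL) (v := beta) (by decide) rfl).2
  have h2 := (fold_spec rep w' (l := betaL) (v := beta) (by decide) rfl).2
  rw [h1, h2, eqL_eq hw]

theorem a_pow : a ^ 5 = 1 := by
  have h1 := eq_of_eqB rel_a5
  simp only [List.map_cons, List.map_nil, List.prod_cons, List.prod_nil, mul_one] at h1
  simp only [a, pow_succ, pow_zero, one_mul, mul_assoc]
  exact h1

theorem b_pow : b ^ 5 = 1 := by
  have h1 := eq_of_eqB rel_b5
  simp only [List.map_cons, List.map_nil, List.prod_cons, List.prod_nil, mul_one] at h1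
  simp only [b, pow_succ, pow_zero, one_mul, mul_assoc]
  exact h1

theorem d_pow : d ^ 5 = 1 := by
  have h1 := eq_of_eqB rel_d5
  simp only [List.map_cons, List.map_nil, List.prod_cons, List.prod_nil, mul_one] at h1
  simp only [d, pow_succ, pow_zero, one_mul, mul_assoc]
  exact h1

theorem c_pow : c ^ 5 = 1 := by
  have h1 := eq_of_eqB rel_c5
  simp only [List.map_cons, List.map_nil, List.prod_cons, List.prod_nil, mul_one, e9, e10] at h1
  simp only [c, a, b, pow_succ, pow_zero, one_mul, mul_assoc]
  exact h1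

theorem ac : a * c = c * a := by
  have h1 := eq_of_eqB rel_ac
  simp only [List.map_cons, List.map_nil, List.prod_cons, List.prod_nil, mul_one, e9, e10] at h1
  simp only [c, a, b, mul_assoc]
  exact h1

theorem bc : b * c = c * b := by
  have h1 := eq_of_eqB rel_bc
  simp only [List.map_cons, List.map_nil, List.prod_cons, List.prod_nil, mul_one, e9, e10] at h1
  simp only [c, a, b, mul_assoc]
  exact h1

theorem dc : d * c = c * d := by
  have h1 := eq_of_eqB rel_dc
  simp only [List.map_cons, List.map_nil, List.prod_cons, List.prod_nil, mul_one, e9, e10] at h1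
  simp only [c, a, b, d, mul_assoc]
  exact h1

theorem da : d * a = a * d := by
  have h1 := eq_of_eqB rel_da
  simp only [List.map_cons, List.map_nil, List.prod_cons, List.prod_nil, mul_one] at h1
  exact h1

theorem bd : b * d = a ^ 4 * c ^ 2 * d * b := by
  have h1 := eq_of_eqB rel_bd
  simp only [List.map_cons, List.map_nil, List.prod_cons, List.prod_nil, mul_one, e9, e10] at h1
  simp only [c, a, b, d, pow_succ, pow_zero, one_mul, mul_assoc]
  exact h1

theorem hd : h * d = c * d ^ 2 * h := by
  have h1 := eq_of_eqB rel_hd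
  simp only [List.map_cons, List.map_nil, List.prod_cons, List.prod_nil, mul_one, e9, e10] at h1
  simp only [c, a, b, d, h, pow_succ, pow_zero, one_mul, mul_assoc]
  exact h1

theorem sa : s * a = a ^ 3 * c ^ 3 * d ^ 2 * s := by
  have h1 := eq_of_eqB rel_sa
  simp only [List.map_cons, List.map_nil, List.prod_cons, List.prod_nil, mul_one, e9, e10] at h1
  simp only [c, a, b, d, s, pow_succ, pow_zero, one_mul, mul_assoc]
  exact h1

theorem sc : s * c = a ^ 4 * c * d ^ 2 * s := by
  have h1 := eq_of_eqB rel_sc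
  simp only [List.map_cons, List.map_nil, List.prod_cons, List.prod_nil, mul_one, e9, e10] at h1
  simp only [c, a, b, d, s, pow_succ, pow_zero, one_mul, mul_assoc]
  exact h1

theorem sd : s * d = d * s := by
  have h1 := eq_of_eqB rel_sd
  simp only [List.map_cons, List.map_nil, List.prod_cons, List.prod_nil, mul_one] at h1
  exact h1

theorem ra : r * a = a * r := by
  have h1 := eq_of_eqB rel_ra
  simp only [List.map_cons, List.map_nil, List.prod_cons, List.prod_nil, mul_one] at h1
  exact h1

theorem rc : r * c = a ^ 4 * c * d * r := by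
  have h1 := eq_of_eqB rel_rc
  simp only [List.map_cons, List.map_nil, List.prod_cons, List.prod_nil, mul_one, e9, e10] at h1
  simp only [c, a, b, d, r, pow_succ, pow_zero, one_mul, mul_assoc]
  exact h1

theorem rd : r * d = a ^ 2 * d ^ 4 * r := by
  have h1 := eq_of_eqB rel_rd
  simp only [List.map_cons, List.map_nil, List.prod_cons, List.prod_nil, mul_one] at h1
  simp only [a, d, r, pow_succ, pow_zero, one_mul, mul_assoc]
  exact h1

theorem ta : t * a = a * t := by
  have h1 := eq_of_eqB rel_ta
  simp only [List.map_cons, List.map_nil, List.prod_cons, List.prod_nil, mul_one] at h1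
  exact h1

theorem tc : t * c = c ^ 2 * t := by
  have h1 := eq_of_eqB rel_tc
  simp only [List.map_cons, List.map_nil, List.prod_cons, List.prod_nil, mul_one, e9, e10] at h1
  simp only [c, a, b, t, pow_succ, pow_zero, one_mul, mul_assoc]
  exact h1

theorem td : t * d = a ^ 3 * c * d ^ 3 * t := by
  have h1 := eq_of_eqB rel_td
  simp only [List.map_cons, List.map_nil, List.prod_cons, List.prod_nil, mul_one, e9, e10] at h1
  simp only [c, a, b, d, t, pow_succ, pow_zero, one_mul, mul_assoc]
  exact h1

theorem gd : g * d = y * g := by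
  have h1 := eq_of_eqB rel_y
  simp only [List.map_cons, List.map_nil, List.prod_cons, List.prod_nil, mul_one] at h1
  exact h1

theorem c_ne : c ≠ 1 := by
  intro h1
  have h2 := ne_one_of_neB rep ne_c
  apply h2
  rw [map_prod_pr]
  have h3 : ([0, 1, 9, 10].map e).prod = c := by
    simp only [List.map_cons, List.map_nil, List.prod_cons, List.prod_nil, mul_one, e9, e10]
    simp only [c, a, b, mul_assoc]
  rw [h3, h1]
  exact map_one _

theorem ab : a * b = c * b * a := by
  unfold c
  group

/-- the conjugation actions -/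
theorem conj_of {x z w : Co0} (hx : x * z = w * x) : x * z * x⁻¹ = w := by
  rw [hx, mul_inv_cancel_right]

/-! ### Fixed vectors -/

theorem nrm_eq {l : List ℤ} (hl : l.length = 24) : sqNorm (vec l) = nrm l := by
  have key : ∀ (l : List ℤ), (l.map fun x => x * x).sum = ∑ i ∈ Finset.range l.length, l.getD i 0 ^ 2 := by
    intro l
    induction l with
    | nil => rfl
    | cons x l ih =>
      rw [List.map_cons, List.sum_cons, List.length_cons, Finset.sum_range_succ', ih, add_comm]
      congr 1
      change x * x = x ^ 2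
      ring
  unfold sqNorm nrm
  rw [GolayBase.sum_pt, key, hl]
  refine Finset.sum_congr rfl fun i hi => ?_
  rw [vec_apply, GolayBase.idx_pt (Finset.mem_range.mp hi)]

/-- a vector fixed by a word -/
theorem exists_fixed {w : List ℕ} {l : List ℤ} {n : ℤ} (hf : fixB w l n = true) :
    ∃ hv : vec l ∈ leechLattice, sqNorm (vec l) = n ∧ (w.map e).prod • (⟨vec l, hv⟩ : leechLattice) = ⟨vec l, hv⟩ := by
  unfold fixB at hf
  rw [Bool.and_eq_true, Bool.and_eq_true, Bool.and_eq_true] at hf
  obtain ⟨⟨⟨h1, h2⟩, h3⟩, h4⟩ := hf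
  have hl := Nat.eq_of_beq_eq_true h4
  refine ⟨vec_mem_of_leechB h2, ?_, ?_⟩
  · rw [nrm_eq hl]
    exact of_decide_eq_true h3
  · apply Subtype.ext
    have h5 := (fold_spec rep w (l := l) (v := ⟨vec l, vec_mem_of_leechB h2⟩) hl.le rfl).2
    rw [eqL_eq h1] at h5
    exact h5

theorem ne_zero_of_norm {v : leechLattice} {n : ℤ} (hn : sqNorm (v : GolayPt → ℤ) = n) (h0 : n ≠ 0) : v ≠ 0 := by
  rintro rfl
  apply h0
  rw [← hn]
  exact CpAutBig.FixCount.sqNorm_zero'

/-! ### `a` is a permutation -/

theorem isPerm_a : Cfsg.Agent.MonsterX.FrameStab.IsPerm a FivePerm.pi5 := by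
  have h0 : a = Co0Mono.permCo0 ⟨FivePerm.pi5, FivePerm.pi5_mem⟩ := by
    apply eq_of_fix
    apply Subtype.ext
    have h1 := (rep 0).apply (v := beta) (l := betaL) (by decide) rfl
    have h2 : (((Co0Mono.permCo0 ⟨FivePerm.pi5, FivePerm.pi5_mem⟩).1 beta : leechLattice) : GolayPt → ℤ) =
        Co0Mono.permMap FivePerm.pi5 (vec betaL) := Co0Mono.permCo0_smul _ beta
    change (((e 0).1 beta : leechLattice) : GolayPt → ℤ) = _
    rw [h1, h2]
    funext p
    obtain ⟨q, rfl⟩ := FivePerm.pi5.surjective p
    rw [Co0Mono.permMap_apply]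
    have h3 : FivePerm.pi5.symm (FivePerm.pi5 q) = q := Equiv.symm_apply_apply _ _
    rw [h3, vec_apply, vec_apply, FivePerm.idx_pi5]
    have h4 : ∀ i < 24, (ap rA betaL).getD (FivePerm.F5.getD i 0) 0 = betaL.getD i 0 := by decide +kernel
    exact h4 _ (GolayBase.idx_lt q)
  rw [h0]
  intro v p
  rw [Co0Mono.permCo0_smul, Co0Mono.permMap_apply]

end Cfsg.Agent.CpAutCoOneFive.Elem
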