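import Cfsg.Agent.CpAutCoOneFive.ClC
import Cfsg.Agent.CpAutCoOneFive.ClD

/-!
# The components for the elements of order five of `Co0` (helper6)

`comps_co0` : the components of `C(x) / O_{5'}(C(x))`, `x ∈ Co0` of order 5, are `C_5`-groups.
-/

set_option autoImplicit false

namespace Cfsg.Agent.CpAutCoOneFive.Main

open Cfsg Subgroup Cfsg.Agent.SporadicStructure.Co0Base
open Cfsg.Agent.CpAutCoOneFive.Elem Cfsg.Agent.CpAutCoOneFive.Nf Cfsg.Agent.CpAutCoOneFive.Cls
open Cfsg.Agent.CpAutBig Cfsg.Agent.OrdDiv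
open Cfsg.Agent.CpAut (AllKnown)
open Cfsg.Agent.LThree (Comps)
open scoped Pointwise

/-- the centralizers of conjugate subgroups of order `p` -/
theorem centralizer_equiv {G : Type*} [Group G] {p : ℕ} (hp : p.Prime) {x r w : G} (hx : orderOf x = p)
    (hr : orderOf r = p) (h : w * x * w⁻¹ ∈ zpowers r) :
    Nonempty (↥(centralizer ({x} : Set G)) ≃* ↥(centralizer ({r} : Set G))) := by
  have h1 : orderOf (w * x * w⁻¹) = p := by
    rw [← MulAut.conj_apply, MulEquiv.orderOf_eq, hx]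
  rw [← CoZero.centralizer_eq_of_mem hp h1 hr h, ← CoZero.map_centralizer]
  exact ⟨(centralizer ({x} : Set G)).equivMapOfInjective _ (MulAut.conj w).injective⟩

theorem comps_of_conj {x r w : Co0} (hx : orderOf x = 5) (hr : orderOf r = 5) (h : w * x * w⁻¹ ∈ zpowers r)
    (hc : Comps 5 ↥(centralizer ({r} : Set Co0))) : Comps 5 ↥(centralizer ({x} : Set Co0)) := by
  obtain ⟨e⟩ := centralizer_equiv five hx hr h
  exact Comps.congr e.symm hc

/-- the centre of `P4` -/
theorem center_P4 {x : Co0} (hx : x ∈ P4 quad) (hcomm : ∀ z ∈ P4 quad, z * x = x * z) : x ∈ zpowers c := by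
  obtain ⟨i, k, l, j, rfl⟩ := hx
  have key : ∀ z ∈ P4 quad, z * N a b c d i k l j * z⁻¹ = N a b c d i k l j := by
    intro z hz
    rw [hcomm z hz, mul_inv_cancel_right]
  have haP : a ∈ P4 quad := ⟨1, 0, 0, 0, by unfold N; rw [E_a, pw_zero, mul_one]⟩
  have hbP : b ∈ P4 quad := ⟨0, 0, 0, 1, by unfold N; rw [E_zero, pw_one, one_mul]⟩
  have h1 := key a haP
  rw [moveA quad] at h1
  have h2 := N_injective (a₁ := (i, k + j, l, j)) (a₂ := (i, k, l, j)) h1
  simp only [Prod.mk.injEq] at h2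
  have hj : j = 0 := by
    have := h2.2.1
    exact left_eq_add.1 this.symm
  have h3 := key b hbP
  rw [moveB quad] at h3
  have h4 := N_injective (a₁ := (i + 4 * l, k - i + 2 * l, l, j)) (a₂ := (i, k, l, j)) h3
  simp only [Prod.mk.injEq] at h4
  have h5 : ∀ i k l : ZMod 5, i + 4 * l = i → k - i + 2 * l = k → i = 0 ∧ l = 0 := by decide
  obtain ⟨hi, hl⟩ := h5 i k l h4.1 h4.2.1
  subst hi hl hj
  refine ⟨(k.val : ℤ), ?_⟩
  change c ^ ((k.val : ℕ) : ℤ) = N a b c d 0 k 0 0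
  unfold N E
  rw [pw_zero, pw_zero, pw_zero, one_mul, mul_one, mul_one, zpow_natCast]
  rfl

/-- an element of order 5 whose centralizer contains a Sylow subgroup -/
theorem conj_c_of_card {x : Co0} (hx : orderOf x = 5) (h : 5 ^ 4 ∣ Nat.card (centralizer ({x} : Set Co0))) :
    ∃ w : Co0, w * x * w⁻¹ ∈ zpowers c := by
  have hfin := CoZero.finite_co0
  have : Fact (Nat.Prime 5) := ⟨five⟩
  obtain ⟨Q, hQ⟩ := Sylow.exists_subgroup_card_pow_prime 5 h
  have hQc : Nat.card ↥(Q.map (centralizer ({x} : Set Co0)).subtype) = 625 := by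
    rw [← Nat.card_congr (Q.equivMapOfInjective _ (centralizer ({x} : Set Co0)).subtype_injective).toEquiv, hQ]
    norm_num
  have hnd : ∀ A : Subgroup Co0, Nat.card ↥A = 625 → ¬ 5 * Nat.card ↥A ∣ Nat.card Co0 := by
    intro A hA hd
    rw [hA, S0397.result] at hd
    norm_num at hd
  have hQp : IsPGroup 5 ↥(Q.map (centralizer ({x} : Set Co0)).subtype) :=
    IsPGroup.of_card (n := 4) (by rw [hQc]; norm_num)
  obtain ⟨T, hT⟩ := Abs.exists_sylow five hQp (hnd _ hQc)
  obtain ⟨U, hU⟩ := Abs.exists_sylow five isPGroup_P4 (hnd _ card_P4)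
  obtain ⟨w, hw⟩ := MulAction.exists_smul_eq Co0 T U
  have hUT : (U : Subgroup Co0) = MulAut.conj w • (T : Subgroup Co0) := by
    rw [← hw]
    rfl
  refine ⟨w, ?_⟩
  have hcomm : ∀ z ∈ P4 quad, z * (w * x * w⁻¹) = (w * x * w⁻¹) * z := by
    intro z hz
    rw [← hU, hUT] at hz
    obtain ⟨t, ht, rfl⟩ := hz
    rw [SetLike.mem_coe, hT] at ht
    obtain ⟨q, -, rfl⟩ := ht
    have h1 : (q : Co0) * x = x * q := mem_centralizer_singleton_iff.1 q.2
    change (w * (q : Co0) * w⁻¹) * (w * x * w⁻¹) = (w * x * w⁻¹) * (w * (q : Co0) * w⁻¹)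
    calc (w * (q : Co0) * w⁻¹) * (w * x * w⁻¹) = w * ((q : Co0) * x) * w⁻¹ := by group
      _ = w * (x * q) * w⁻¹ := by rw [h1]
      _ = (w * x * w⁻¹) * (w * (q : Co0) * w⁻¹) := by group
  refine center_P4 ?_ hcomm
  have hxo : orderOf (w * x * w⁻¹) = 5 := by
    rw [← MulAut.conj_apply, MulEquiv.orderOf_eq, hx]
  have hzp : IsPGroup 5 ↥(zpowers (w * x * w⁻¹)) :=
    IsPGroup.of_card (n := 1) (by rw [Nat.card_zpowers, hxo, pow_one])
  have h2 := hzp.inf_normalizer_sylow U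
  have h3 : w * x * w⁻¹ ∈ zpowers (w * x * w⁻¹) ⊓ normalizer (U : Set Co0) := by
    refine mem_inf.2 ⟨mem_zpowers _, ?_⟩
    change w * x * w⁻¹ ∈ normalizer ((U : Subgroup Co0) : Set Co0)
    rw [hU, mem_normalizer_iff]
    intro z
    constructor
    · intro hz
      have h4 := hcomm z hz
      have h5 : (w * x * w⁻¹) * z * (w * x * w⁻¹)⁻¹ = z := by rw [← h4, mul_inv_cancel_right]
      rwa [h5]
    · intro hz
      have h4 := hcomm _ hz
      have h5 : z = (w * x * w⁻¹) * z * (w * x * w⁻¹)⁻¹ := by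
        have h6 : z = (w * x * w⁻¹)⁻¹ * (((w * x * w⁻¹) * z * (w * x * w⁻¹)⁻¹) * (w * x * w⁻¹)) := by group
        rw [h4] at h6
        rw [inv_mul_cancel_left] at h6
        exact h6
      rw [h5]
      exact hz
  rw [h2] at h3
  have h4 := (mem_inf.1 h3).2
  rwa [hU] at h4

/-- **The components for the elements of order five.** -/
theorem comps_co0 (hS : AllKnown.{0}) (T : OrderTable.{0}) {x : Co0} (hx : orderOf x = 5) :
    Comps 5 ↥(centralizer ({x} : Set Co0)) := by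
  have hc : (∃ w : Co0, w * x * w⁻¹ ∈ zpowers c) → Comps 5 ↥(centralizer ({x} : Set Co0)) := by
    rintro ⟨w, hw⟩
    exact comps_of_conj hx orderOf_c hw (ClC.comps_c hS T)
  by_cases h : 5 ^ 4 ∣ Nat.card (centralizer ({x} : Set Co0))
  · exact hc (conj_c_of_card hx h)
  rcases Cls.cases hx with ⟨w, hw⟩ | h1 | ⟨w, hw⟩
  · rw [CoZero.card_centralizer_of_conj five hx orderOf_a hw] at h
    exact comps_of_conj hx orderOf_a hw (ClA.comps_a hS T h)
  · exact hc h1
  · rw [CoZero.card_centralizer_of_conj five hx orderOf_d hw] at h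
    exact comps_of_conj hx orderOf_d hw (ClD.comps_d hS T h)

end Cfsg.Agent.CpAutCoOneFive.Main
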