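import Cfsg.Agent.CpAutCoOneFive.Main
import Cfsg.Agent.CpAutBig.CoOneSeven

/-!
# S1814: the row `Co1`, `p = 5` (helper6)

`lpAll` : the components of `C(x) / O_{5'}(C(x))`, `x ∈ Co1` of order 5, are `C_5`-groups; `autC`.
`hS` : the classification; `T` : the table of orders (`OrdDiv.table`).
-/

set_option autoImplicit false

namespace Cfsg.Agent.CpAutCoOneFive.Row

open Subgroup Cfsg Cfsg.Spor
open Cfsg.Agent.LThree (Comps lpAll_iff)
open Cfsg.Agent.CpAut
open Cfsg.Agent.OrdDiv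

theorem lpAll_co0 (hS : AllKnown.{0}) (T : OrderTable.{0}) : LpAll 5 Co0 (InC 5) := by
  rw [lpAll_iff]
  intro x hx
  exact Main.comps_co0 hS T hx

theorem lpAll (hS : AllKnown.{0}) (T : OrderTable.{0}) : LpAll 5 Co1 (InC 5) := by
  have hc : Nat.card ↥(center Co0) = 2 := Cfsg.Agent.S0398.result
  exact LThree.Red.lpAll_quot (by norm_num) (center Co0) (by rw [hc]; norm_num) (lpAll_co0 hS T)

/-- **Row `Co1`, `p = 5`.** -/
theorem autC (hS : AllKnown.{0}) (T : OrderTable.{0}) : AutC 5 Co1 :=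
  autC_of_inner CpAutBig.CoOneSeven.center_co1 (CpAutBig.CoOneSeven.autInner 5)
    fun g hg => (lpAll_iff.1 (lpAll hS T)) g hg

end Cfsg.Agent.CpAutCoOneFive.Row
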